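import Mathlib
import Cfsg.Prelude

/-!
# Farm DL (helper46): for odd `p`, the `p`-length of a `p`-soluble group is at most the derived length
of its Sylow `p`-subgroups (S3789).  Shared definitions.

`𝒬` is a `q`-group and `ℰ` a `p`-group of linear maps in characteristic `p`, `ℰ` normalises `𝒬`,
`D = ⁅ℰ, ℰ⁆` acts quadratically (`(x-1)^2 = 0`) and `(x-1)(e-1)^2 = 0` for `x ∈ D`, `e ∈ ℰ`.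
Goal (`Comm`): `D` centralises `𝒬`.
-/

set_option autoImplicit false

namespace Cfsg.Agent.Lib.Helper46.DL

section lin

variable {K : Type*} [Field K] {V : Type*} [AddCommGroup V] [Module K V]

/-- the linear configuration -/
structure Cfg (q p : ℕ) (𝒬 ℰ : Subgroup (V ≃ₗ[K] V)) : Prop where
  finQ : Finite 𝒬
  finE : Finite ℰ
  pQ : IsPGroup q 𝒬
  pE : IsPGroup p ℰ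
  norm : ∀ e ∈ ℰ, ∀ g ∈ 𝒬, e * g * e⁻¹ ∈ 𝒬
  quad : ∀ x ∈ ⁅ℰ, ℰ⁆, ∀ v : V, x (x v) - x v - x v + v = 0
  cub : ∀ x ∈ ⁅ℰ, ℰ⁆, ∀ e ∈ ℰ, ∀ v : V,
    x (e (e v) - e v - e v + v) = e (e v) - e v - e v + v

/-- the goal: `⁅ℰ, ℰ⁆` centralises `𝒬` -/
def Comm (𝒬 ℰ : Subgroup (V ≃ₗ[K] V)) : Prop :=
  ∀ x ∈ ⁅ℰ, ℰ⁆, ∀ g ∈ 𝒬, x * g = g * x

/-- minimality in `𝒬`: the goal holds for all proper `ℰ`-invariant subgroups of `𝒬` -/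
def M1 (𝒬 ℰ : Subgroup (V ≃ₗ[K] V)) : Prop :=
  ∀ 𝒬₁ : Subgroup (V ≃ₗ[K] V), 𝒬₁ ≤ 𝒬 → 𝒬₁ ≠ 𝒬 → (∀ e ∈ ℰ, ∀ g ∈ 𝒬₁, e * g * e⁻¹ ∈ 𝒬₁) →
    ∀ x ∈ ⁅ℰ, ℰ⁆, ∀ g ∈ 𝒬₁, x * g = g * x

/-- minimality in `V`: the goal holds on all proper `𝒬ℰ`-invariant subspaces -/
def M2 (𝒬 ℰ : Subgroup (V ≃ₗ[K] V)) : Prop :=
  ∀ W : Submodule K V, W ≠ ⊤ → (∀ g ∈ 𝒬, ∀ w ∈ W, g w ∈ W) → (∀ e ∈ ℰ, ∀ w ∈ W, e w ∈ W) →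
    ∀ x ∈ ⁅ℰ, ℰ⁆, ∀ g ∈ 𝒬, ∀ w ∈ W, x (g w) = g (x w)

end lin

/-- the abstract configuration reached in a minimal counterexample (`p = 3`, `q = 2`) -/
structure GCfg {Γ : Type*} [Group Γ] (𝒬 ℰ : Subgroup Γ) (x : Γ) : Prop where
  finQ : Finite 𝒬
  pQ : IsPGroup 2 𝒬
  norm : ∀ e ∈ ℰ, ∀ g ∈ 𝒬, e * g * e⁻¹ ∈ 𝒬
  xE : x ∈ ℰ
  x3 : x * x * x = 1
  xc : ∀ e ∈ ℰ, ∀ g ∈ 𝒬, (e * x * e⁻¹ * x⁻¹) * g = g * (e * x * e⁻¹ * x⁻¹)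
  ab : ∀ 𝒜 : Subgroup Γ, 𝒜 ≤ 𝒬 → (∀ a ∈ 𝒜, ∀ b ∈ 𝒜, a * b = b * a) →
    (∀ a ∈ 𝒜, x * a * x⁻¹ ∈ 𝒜) → ∀ a ∈ 𝒜, x * a = a * x
  min : ∀ 𝒬₁ : Subgroup Γ, 𝒬₁ ≤ 𝒬 → 𝒬₁ ≠ 𝒬 → (∀ e ∈ ℰ, ∀ g ∈ 𝒬₁, e * g * e⁻¹ ∈ 𝒬₁) →
    ∀ g ∈ 𝒬₁, x * g = g * x
  inv1 : ∀ t ∈ 𝒬, ∀ t' ∈ 𝒬, (∀ g ∈ 𝒬, t * g = g * t) → (∀ g ∈ 𝒬, t' * g = g * t') →
    t * t = 1 → t' * t' = 1 → t ≠ 1 → t' ≠ 1 → t = t'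
  nc : ∃ g ∈ 𝒬, x * g ≠ g * x

/-- the derived series of a subgroup, as subgroups of the ambient group -/
def dS {G : Type*} [Group G] (S : Subgroup G) : ℕ → Subgroup G
  | 0 => S
  | n + 1 => ⁅dS S n, dS S n⁆

end Cfsg.Agent.Lib.Helper46.DL
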