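import Mathlib
import Cfsg.Agent.Lib.Helper46.DL.Defs
import Cfsg.Agent.Lib.Helper53.HH.Main
import Cfsg.Agent.Lib.Helper81.HHR9

/-!
# Farm DL (helper46, S3789), piece TB

Hall-Higman Theorem B (landed) for a quadratic element, over ANY field of characteristic p.
-/

set_option autoImplicit false
set_option linter.unusedSectionVars false
set_option linter.unusedVariables false

namespace Cfsg.Agent.Lib.Helper46.DL

theorem TB {F : Type*} [Field F] (p q : ℕ) [Fact p.Prime] [Fact q.Prime] (hpq : p ≠ q) (hp2 : p ≠ 2)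
    [CharP F p] {V : Type*} [AddCommGroup V] [Module F V] [FiniteDimensional F V]
    (𝒬 : Subgroup (V ≃ₗ[F] V)) [Finite 𝒬] (hq : IsPGroup q 𝒬) (X : V ≃ₗ[F] V)
    (hnorm : ∀ g ∈ 𝒬, X * g * X⁻¹ ∈ 𝒬) (hquad : ∀ v : V, X (X v) - X v - X v + v = 0)
    (hnc : ∃ g ∈ 𝒬, X * g ≠ g * X) :
    p = 3 ∧ q = 2 ∧ ¬ (∀ a ∈ 𝒬, ∀ b ∈ 𝒬, a * b = b * a) := by
  have hp := (Fact.out : p.Prime)
  have hqp := (Fact.out : q.Prime)
  have hp3 : 3 ≤ p := by
    have := hp.two_le
    omega
  obtain ⟨g0, hg0, hXg0⟩ := hnc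
  have hnt : Nontrivial V := by
    by_contra h
    rw [not_nontrivial_iff_subsingleton] at h
    apply hXg0
    ext v
    exact Subsingleton.elim _ _
  have hx2 : (X.toLinearMap - 1 : Module.End F V) ^ 2 = 0 := by
    ext v
    have := hquad v
    simp only [sq, Module.End.mul_apply, LinearMap.sub_apply, Module.End.one_apply,
      LinearEquiv.coe_coe, map_sub, LinearMap.zero_apply]
    rw [← this]
    abel
  have hcoe : ∀ k : ℕ, ((X ^ k : V ≃ₗ[F] V).toLinearMap : Module.End F V) =
      (X.toLinearMap : Module.End F V) ^ k := by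
    intro k
    induction k with
    | zero => rfl
    | succ k ih =>
      rw [pow_succ, pow_succ, ← ih]
      rfl
  have hxp : (X.toLinearMap - 1 : Module.End F V) ^ p = 0 := by
    have : p = 2 + (p - 2) := by omega
    rw [this, pow_add, hx2, zero_mul]
  have hXp : X ^ p = 1 := by
    have hch : CharP (Module.End F V) p :=
      charP_of_injective_algebraMap (algebraMap F (Module.End F V)).injective p
    rw [sub_pow_char_of_commute p (Commute.one_right _), one_pow, ← hcoe, sub_eq_zero] at hxp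
    apply LinearEquiv.toLinearMap_injective
    exact hxp
  set K := AlgebraicClosure F with hK
  have hchK : CharP K p := charP_of_injective_algebraMap (algebraMap F K).injective p
  obtain ⟨Φ, hΦinj, hΦ⟩ := Cfsg.Agent.Lib.Helper81.HH.exists_baseChange (F := F) (V := V) K
  set 𝒬' := 𝒬.map Φ with h𝒬
  have hfin : Finite 𝒬' := by
    have : ((𝒬' : Subgroup _) : Set (TensorProduct F K V ≃ₗ[K] TensorProduct F K V)).Finite := by
      rw [h𝒬, Subgroup.coe_map]
      exact (Set.toFinite _).image _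
    exact this.to_subtype
  have hmain := Cfsg.Agent.Lib.Helper53.HH.main_aux K p q hpq
    (Module.finrank K (TensorProduct F K V))
    (TensorProduct F K V) rfl (Nat.card 𝒬') 𝒬' rfl (hq.map Φ) (Φ X) (by
      rintro _ ⟨b, hb, rfl⟩
      rw [← map_inv, ← map_mul, ← map_mul]
      exact ⟨_, hnorm b hb, rfl⟩) 1 le_rfl (by
      rw [← map_pow, pow_one, hXp, map_one]) ⟨Φ g0, ⟨g0, hg0, rfl⟩, by
      rw [Nat.sub_self, pow_zero, pow_one, ← map_mul, ← map_mul]
      exact fun h => hXg0 (hΦinj h)⟩ 2 ((hΦ X 2).2 hx2)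
  rcases hmain with h | ⟨n₀, m, h1, h2, h3, h4, h5, h6⟩
  · rw [pow_one] at h
    omega
  · have hn0 : n₀ = 1 := le_antisymm h2 h1
    subst hn0
    rw [Nat.sub_self, pow_zero, one_mul, pow_one] at h6
    rw [pow_one] at h4
    have hp3' : p = 3 := by omega
    subst hp3'
    refine ⟨rfl, ?_, ?_⟩
    · have h7 : q ∣ 2 := by
        have : q ∣ q ^ m := dvd_pow_self q (by omega)
        rw [← h4] at this
        exact this
      exact (Nat.prime_dvd_prime_iff_eq hqp Nat.prime_two).1 h7
    · intro hc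
      apply h5
      rw [Cfsg.Agent.Lib.Helper53.HH.comm_iff]
      rintro _ ⟨b, hb, rfl⟩ _ ⟨c, hc', rfl⟩
      rw [← map_mul, ← map_mul, hc b hb c hc']

end Cfsg.Agent.Lib.Helper46.DL
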