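import Mathlib
import Cfsg.Agent.Lib.Helper46.DL.Defs
import Cfsg.Agent.Lib.Helper46.DL.TB

/-!
# Farm DL (helper46, S3789), piece AB
-/

set_option autoImplicit false
set_option linter.unusedSectionVars false
set_option linter.unusedVariables false

namespace Cfsg.Agent.Lib.Helper46.DL

variable {K : Type*} [Field K] {V : Type*} [AddCommGroup V] [Module K V]

theorem abel [CharP K 3] [FiniteDimensional K V] {𝒬 ℰ : Subgroup (V ≃ₗ[K] V)} (hc : Cfg 2 3 𝒬 ℰ)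
    (x : V ≃ₗ[K] V) (hx : x ∈ ⁅ℰ, ℰ⁆) (𝒜 : Subgroup (V ≃ₗ[K] V)) (hA : 𝒜 ≤ 𝒬)
    (hcomm : ∀ a ∈ 𝒜, ∀ b ∈ 𝒜, a * b = b * a) (hinv : ∀ a ∈ 𝒜, x * a * x⁻¹ ∈ 𝒜) :
    ∀ a ∈ 𝒜, x * a = a * x := by
  intro a ha
  by_contra hne
  haveI := hc.finQ
  haveI : Finite 𝒜 := Finite.of_injective (Subgroup.inclusion hA) (Subgroup.inclusion_injective hA)
  haveI : Fact (Nat.Prime 3) := ⟨Nat.prime_three⟩
  haveI : Fact (Nat.Prime 2) := ⟨Nat.prime_two⟩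
  have h := TB (F := K) 3 2 (by norm_num) (by norm_num) 𝒜 (hc.pQ.to_le hA) x hinv (hc.quad x hx)
    ⟨a, ha, hne⟩
  exact h.2.2 hcomm

end Cfsg.Agent.Lib.Helper46.DL
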