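import Mathlib
import Cfsg.Agent.Lib.Helper46.DL.Defs

/-!
# Farm DL (helper46, S3789), piece SPL

For x ∈ ⁅ℰ,ℰ⁆, g ∈ 𝒬 and v : V write v = w₁ + w₂ with wᵢ ∈ Wᵢ.  hM2 gives x (g wᵢ) = g (x wᵢ).
-/

set_option autoImplicit false
set_option linter.unusedSectionVars false
set_option linter.unusedVariables false

namespace Cfsg.Agent.Lib.Helper46.DL

variable {K : Type*} [Field K] {V : Type*} [AddCommGroup V] [Module K V]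

theorem split {𝒬 ℰ : Subgroup (V ≃ₗ[K] V)} (hM2 : M2 𝒬 ℰ) (W₁ W₂ : Submodule K V) (h₁ : W₁ ≠ ⊤)
    (h₂ : W₂ ≠ ⊤) (hsup : W₁ ⊔ W₂ = ⊤)
    (hQ₁ : ∀ g ∈ 𝒬, ∀ w ∈ W₁, g w ∈ W₁) (hE₁ : ∀ e ∈ ℰ, ∀ w ∈ W₁, e w ∈ W₁)
    (hQ₂ : ∀ g ∈ 𝒬, ∀ w ∈ W₂, g w ∈ W₂) (hE₂ : ∀ e ∈ ℰ, ∀ w ∈ W₂, e w ∈ W₂) : Comm 𝒬 ℰ := by
  intro x hx g hg
  apply LinearEquiv.ext
  intro v
  have hv : v ∈ W₁ ⊔ W₂ := by rw [hsup]; trivial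
  obtain ⟨w₁, hw₁, w₂, hw₂, rfl⟩ := Submodule.mem_sup.1 hv
  have e1 := hM2 W₁ h₁ hQ₁ hE₁ x hx g hg w₁ hw₁
  have e2 := hM2 W₂ h₂ hQ₂ hE₂ x hx g hg w₂ hw₂
  simp only [LinearEquiv.mul_apply, map_add, e1, e2]

end Cfsg.Agent.Lib.Helper46.DL
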