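import Mathlib
import Cfsg.Agent.Lib.Helper46.DL.Defs
import Cfsg.Agent.Lib.Helper46.DL.SPL

/-!
# Farm DL (helper46, S3789), piece L1
-/

set_option autoImplicit false
set_option linter.unusedSectionVars false
set_option linter.unusedVariables false

namespace Cfsg.Agent.Lib.Helper46.DL

variable {K : Type*} [Field K] {V : Type*} [AddCommGroup V] [Module K V]

theorem central_inv_fixed [CharP K 3] {𝒬 ℰ : Subgroup (V ≃ₗ[K] V)} (hM2 : M2 𝒬 ℰ)
    (hnc : ¬ Comm 𝒬 ℰ) (t : V ≃ₗ[K] V) (htQ : ∀ g ∈ 𝒬, t * g = g * t) (htE : ∀ e ∈ ℰ, t * e = e * t)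
    (ht2 : t * t = 1) (ht1 : t ≠ 1) : ∀ v : V, t v = -v := by
  have htt : ∀ v, t (t v) = v := fun v => by
    have := LinearEquiv.congr_fun ht2 v
    simpa using this
  have h2 : (2 : K) ≠ 0 := by
    intro h
    have h3 : ((2 : ℕ) : K) = 0 := by exact_mod_cast h
    rw [CharP.cast_eq_zero_iff K 3 2] at h3
    omega
  let W₁ : Submodule K V :=
    { carrier := {v | t v = v}
      add_mem' := by
        intro a b ha hb
        show t (a + b) = a + b
        rw [map_add, (show t a = a from ha), (show t b = b from hb)]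
      zero_mem' := map_zero t
      smul_mem' := by
        intro c v hv
        show t (c • v) = c • v
        rw [map_smul, (show t v = v from hv)] }
  let W₂ : Submodule K V :=
    { carrier := {v | t v = -v}
      add_mem' := by
        intro a b ha hb
        show t (a + b) = -(a + b)
        rw [map_add, (show t a = -a from ha), (show t b = -b from hb), neg_add]
      zero_mem' := by
        show t 0 = -0
        rw [map_zero, neg_zero]
      smul_mem' := by
        intro c v hv
        show t (c • v) = -(c • v)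
        rw [map_smul, (show t v = -v from hv), smul_neg] }
  have inv₁ : ∀ h : V ≃ₗ[K] V, t * h = h * t → ∀ w ∈ W₁, h w ∈ W₁ := by
    intro h hc w hw
    show t (h w) = h w
    have h3 := LinearEquiv.congr_fun hc w
    rw [LinearEquiv.mul_apply, LinearEquiv.mul_apply, (show t w = w from hw)] at h3
    exact h3
  have inv₂ : ∀ h : V ≃ₗ[K] V, t * h = h * t → ∀ w ∈ W₂, h w ∈ W₂ := by
    intro h hc w hw
    show t (h w) = -(h w)
    have h3 := LinearEquiv.congr_fun hc w
    rw [LinearEquiv.mul_apply, LinearEquiv.mul_apply, (show t w = -w from hw), map_neg] at h3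
    exact h3
  have hsup : W₁ ⊔ W₂ = ⊤ := by
    rw [eq_top_iff]
    intro v _
    have h3 : v = (2 : K)⁻¹ • (v + t v) + (2 : K)⁻¹ • (v - t v) := by
      have h4 : (2 : K)⁻¹ • (v + t v) + (2 : K)⁻¹ • (v - t v) = ((2 : K)⁻¹ * 2) • v := by module
      rw [h4, inv_mul_cancel₀ h2, one_smul]
    rw [h3]
    refine Submodule.add_mem_sup (Submodule.smul_mem _ _ ?_) (Submodule.smul_mem _ _ ?_)
    · show t (v + t v) = v + t v
      rw [map_add, htt, add_comm]
    · show t (v - t v) = -(v - t v)
      rw [map_sub, htt, neg_sub]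
  have h₁ : W₁ ≠ ⊤ := by
    intro h
    apply ht1
    ext v
    have : v ∈ W₁ := h ▸ Submodule.mem_top
    exact this
  have h₂ : W₂ = ⊤ := by
    by_contra h₂
    exact hnc (split hM2 W₁ W₂ h₁ h₂ hsup (fun g hg => inv₁ g (htQ g hg)) (fun e he => inv₁ e (htE e he))
      (fun g hg => inv₂ g (htQ g hg)) (fun e he => inv₂ e (htE e he)))
  intro v
  have : v ∈ W₂ := h₂ ▸ Submodule.mem_top
  exact this

end Cfsg.Agent.Lib.Helper46.DL
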