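import Mathlib
import Cfsg.Agent.Lib.Helper46.DL.Defs

/-!
# Farm DL (helper46, S3789), piece L2a
-/

set_option autoImplicit false
set_option linter.unusedSectionVars false
set_option linter.unusedVariables false

namespace Cfsg.Agent.Lib.Helper46.DL

theorem cube_fix {Γ : Type*} [Group Γ] (e t : Γ) (k : ℕ) (he : e ^ 3 ^ k = 1) (hne : e * t * e⁻¹ ≠ t) :
    ∃ j : ℕ, (e ^ j) * t * (e ^ j)⁻¹ ≠ t ∧
      (e ^ j) * ((e ^ j) * ((e ^ j) * t * (e ^ j)⁻¹) * (e ^ j)⁻¹) * (e ^ j)⁻¹ = t := by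
  classical
  have hex : ∃ j, (e ^ 3 ^ j) * t * (e ^ 3 ^ j)⁻¹ = t := ⟨k, by rw [he]; simp⟩
  have hj₀ : (e ^ 3 ^ (Nat.find hex)) * t * (e ^ 3 ^ (Nat.find hex))⁻¹ = t := Nat.find_spec hex
  have hj0 : Nat.find hex ≠ 0 := by
    intro h0
    rw [h0] at hj₀
    simp only [pow_zero, pow_one] at hj₀
    exact hne hj₀
  obtain ⟨i, hi⟩ := Nat.exists_eq_succ_of_ne_zero hj0
  refine ⟨3 ^ i, Nat.find_min hex (by omega : i < Nat.find hex), ?_⟩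
  have h3 : e ^ 3 ^ (Nat.find hex) = e ^ 3 ^ i * e ^ 3 ^ i * e ^ 3 ^ i := by
    rw [hi, Nat.succ_eq_add_one, pow_succ, pow_mul, pow_succ, pow_two]
  rw [h3] at hj₀
  simpa [mul_assoc] using hj₀

end Cfsg.Agent.Lib.Helper46.DL
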