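import Mathlib
import Cfsg.Agent.Lib.Helper46.DL.Defs

/-!
# Farm DL (helper46, S3789), piece L2b
-/

set_option autoImplicit false
set_option linter.unusedSectionVars false
set_option linter.unusedVariables false

namespace Cfsg.Agent.Lib.Helper46.DL

variable {K : Type*} [Field K] {V : Type*} [AddCommGroup V] [Module K V]

/-- the operator `(1 + a t₀)(1 + b t₁)(1 + c t₂)` -/
def L2b_P (t₀ t₁ t₂ : V ≃ₗ[K] V) (a b c : K) : V →ₗ[K] V :=
  (LinearMap.id + a • (t₀ : V →ₗ[K] V)) ∘ₗ (LinearMap.id + b • (t₁ : V →ₗ[K] V)) ∘ₗ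
    (LinearMap.id + c • (t₂ : V →ₗ[K] V))

theorem L2b_P_apply (t₀ t₁ t₂ : V ≃ₗ[K] V) (a b c : K) (v : V) :
    L2b_P t₀ t₁ t₂ a b c v = v + c • t₂ v + b • t₁ v + (b * c) • t₁ (t₂ v) + a • t₀ v
      + (a * c) • t₀ (t₂ v) + (a * b) • t₀ (t₁ v) + (a * b * c) • t₀ (t₁ (t₂ v)) := by
  simp only [L2b_P, LinearMap.comp_apply, LinearMap.add_apply, LinearMap.id_apply,
    LinearMap.smul_apply, LinearEquiv.coe_coe, map_add, map_smul]
  module

theorem L2b_P_eigen (t₀ t₁ t₂ : V ≃ₗ[K] V) (a b c α β γ : K) (u : V) (h0 : t₀ u = α • u)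
    (h1 : t₁ u = β • u) (h2 : t₂ u = γ • u) :
    L2b_P t₀ t₁ t₂ a b c u = ((1 + a * α) * (1 + b * β) * (1 + c * γ)) • u := by
  rw [L2b_P_apply]
  simp only [h0, h1, h2, map_smul]
  module

theorem L2b_main (h8 : (8 : K) ≠ 0) (t₀ t₁ t₂ e : V ≃ₗ[K] V) (h00 : t₀ * t₀ = 1) (h11 : t₁ * t₁ = 1)
    (h22 : t₂ * t₂ = 1) (c01 : t₀ * t₁ = t₁ * t₀) (c02 : t₀ * t₂ = t₂ * t₀) (c12 : t₁ * t₂ = t₂ * t₁)
    (e0 : e * t₀ * e⁻¹ = t₁) (e1 : e * t₁ * e⁻¹ = t₂) (e2 : e * t₂ * e⁻¹ = t₀)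
    (a c : K) (ha : a = 1 ∨ a = -1) (hc : c = 1 ∨ c = -1) :
      (∀ g : V ≃ₗ[K] V, g * t₀ = t₀ * g → g * t₁ = t₁ * g → g * t₂ = t₂ * g →
        ∀ v, g (L2b_P t₀ t₁ t₂ a (-a) c v) = L2b_P t₀ t₁ t₂ a (-a) c (g v)) ∧
      (∀ x : V ≃ₗ[K] V, x * t₀ = t₀ * x → x * t₁ = t₁ * x → x * t₂ = t₂ * x →
        (∀ v, x (e (e v) - e v - e v + v) = e (e v) - e v - e v + v) →
          ∀ v, x (L2b_P t₀ t₁ t₂ a (-a) c v) = L2b_P t₀ t₁ t₂ a (-a) c v) := by
  have s00 : ∀ v, t₀ (t₀ v) = v := fun v => by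
    have := LinearEquiv.congr_fun h00 v; simpa [LinearEquiv.mul_apply] using this
  have s11 : ∀ v, t₁ (t₁ v) = v := fun v => by
    have := LinearEquiv.congr_fun h11 v; simpa [LinearEquiv.mul_apply] using this
  have s22 : ∀ v, t₂ (t₂ v) = v := fun v => by
    have := LinearEquiv.congr_fun h22 v; simpa [LinearEquiv.mul_apply] using this
  have k01 : ∀ v, t₁ (t₀ v) = t₀ (t₁ v) := fun v => by
    have := LinearEquiv.congr_fun c01 v; simpa [LinearEquiv.mul_apply] using this.symm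
  have k02 : ∀ v, t₂ (t₀ v) = t₀ (t₂ v) := fun v => by
    have := LinearEquiv.congr_fun c02 v; simpa [LinearEquiv.mul_apply] using this.symm
  have k12 : ∀ v, t₂ (t₁ v) = t₁ (t₂ v) := fun v => by
    have := LinearEquiv.congr_fun c12 v; simpa [LinearEquiv.mul_apply] using this.symm
  have f0 : ∀ v, t₁ (e v) = e (t₀ v) := fun v => by
    have h : e * t₀ = t₁ * e := by rw [← e0]; group
    have := LinearEquiv.congr_fun h v; simpa [LinearEquiv.mul_apply] using this.symm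
  have f1 : ∀ v, t₂ (e v) = e (t₁ v) := fun v => by
    have h : e * t₁ = t₂ * e := by rw [← e1]; group
    have := LinearEquiv.congr_fun h v; simpa [LinearEquiv.mul_apply] using this.symm
  have f2 : ∀ v, t₀ (e v) = e (t₂ v) := fun v => by
    have h : e * t₂ = t₀ * e := by rw [← e2]; group
    have := LinearEquiv.congr_fun h v; simpa [LinearEquiv.mul_apply] using this.symm
  have hcomm : ∀ g : V ≃ₗ[K] V, g * t₀ = t₀ * g → g * t₁ = t₁ * g → g * t₂ = t₂ * g →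
        ∀ v, g (L2b_P t₀ t₁ t₂ a (-a) c v) = L2b_P t₀ t₁ t₂ a (-a) c (g v) := by
    intro g g0 g1 g2 v
    have g0' : ∀ v, g (t₀ v) = t₀ (g v) := fun v => by
      have := LinearEquiv.congr_fun g0 v; simpa [LinearEquiv.mul_apply] using this
    have g1' : ∀ v, g (t₁ v) = t₁ (g v) := fun v => by
      have := LinearEquiv.congr_fun g1 v; simpa [LinearEquiv.mul_apply] using this
    have g2' : ∀ v, g (t₂ v) = t₂ (g v) := fun v => by
      have := LinearEquiv.congr_fun g2 v; simpa [LinearEquiv.mul_apply] using this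
    rw [L2b_P_apply, L2b_P_apply]
    simp only [map_add, map_smul, g0', g1', g2']
  refine ⟨hcomm, ?_⟩
  intro x x0 x1 x2 hx v
  have hT0 : ∀ v, t₀ (L2b_P t₀ t₁ t₂ a (-a) c v) = a • L2b_P t₀ t₁ t₂ a (-a) c v := by
    intro v
    rw [L2b_P_apply]
    simp only [map_add, map_smul, s00]
    rcases ha with rfl | rfl <;> module
  have hT1 : ∀ v, t₁ (L2b_P t₀ t₁ t₂ a (-a) c v) = (-a) • L2b_P t₀ t₁ t₂ a (-a) c v := by
    intro v
    rw [L2b_P_apply]
    simp only [map_add, map_smul, k01, s11]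
    rcases ha with rfl | rfl <;> module
  have hT2 : ∀ v, t₂ (L2b_P t₀ t₁ t₂ a (-a) c v) = c • L2b_P t₀ t₁ t₂ a (-a) c v := by
    intro v
    rw [L2b_P_apply]
    simp only [map_add, map_smul, k02, k12, s22]
    rcases hc with rfl | rfl <;> module
  set w := L2b_P t₀ t₁ t₂ a (-a) c v with hw
  have haa : a * a = 1 := by rcases ha with rfl | rfl <;> ring
  have hcc : c * c = 1 := by rcases hc with rfl | rfl <;> ring
  have hPw : L2b_P t₀ t₁ t₂ a (-a) c w = (8 : K) • w := by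
    rw [L2b_P_eigen t₀ t₁ t₂ a (-a) c a (-a) c w (hT0 v) (hT1 v) (hT2 v)]
    congr 1
    linear_combination (4 + 2 * a * a + 2 * c * c + a * a * c * c - a * a * c * c + 0) * 0 + (2 * (1 + c * c) + (1 + c * c) * (a * a + 1)) * haa + 4 * hcc
  have hew0 : t₀ (e w) = c • e w := by rw [f2, hT2 v, map_smul]
  have hew1 : t₁ (e w) = a • e w := by rw [f0, hT0 v, map_smul]
  have hew2 : t₂ (e w) = (-a) • e w := by rw [f1, hT1 v, map_smul]
  have hPew : L2b_P t₀ t₁ t₂ a (-a) c (e w) = 0 := by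
    rw [L2b_P_eigen t₀ t₁ t₂ a (-a) c c a (-a) (e w) hew0 hew1 hew2]
    have : (1 + -a * a) = 0 := by linear_combination -haa
    rw [this]; simp
  have heew0 : t₀ (e (e w)) = (-a) • e (e w) := by rw [f2, hew2, map_smul]
  have heew1 : t₁ (e (e w)) = c • e (e w) := by rw [f0, hew0, map_smul]
  have heew2 : t₂ (e (e w)) = a • e (e w) := by rw [f1, hew1, map_smul]
  have hPeew : L2b_P t₀ t₁ t₂ a (-a) c (e (e w)) = 0 := by
    rw [L2b_P_eigen t₀ t₁ t₂ a (-a) c (-a) c a (e (e w)) heew0 heew1 heew2]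
    have : (1 + a * -a) = 0 := by linear_combination -haa
    rw [this]; simp
  have hPs : L2b_P t₀ t₁ t₂ a (-a) c (e (e w) - e w - e w + w) = (8 : K) • w := by
    rw [map_add, map_sub, map_sub, hPeew, hPew, hPw]; simp
  have h1 : x ((8 : K) • w) = (8 : K) • w := by
    rw [← hPs, hcomm x x0 x1 x2, hx w]
  rw [map_smul] at h1
  exact smul_right_injective V h8 h1

theorem proj_exists [CharP K 3] (t₀ t₁ t₂ e : V ≃ₗ[K] V) (h00 : t₀ * t₀ = 1) (h11 : t₁ * t₁ = 1)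
    (h22 : t₂ * t₂ = 1) (c01 : t₀ * t₁ = t₁ * t₀) (c02 : t₀ * t₂ = t₂ * t₀) (c12 : t₁ * t₂ = t₂ * t₁)
    (e0 : e * t₀ * e⁻¹ = t₁) (e1 : e * t₁ * e⁻¹ = t₂) (e2 : e * t₂ * e⁻¹ = t₀) (hne : t₀ ≠ t₁) :
    ∃ P : V →ₗ[K] V, P ≠ 0 ∧
      (∀ g : V ≃ₗ[K] V, g * t₀ = t₀ * g → g * t₁ = t₁ * g → g * t₂ = t₂ * g →
        ∀ v, g (P v) = P (g v)) ∧
      (∀ x : V ≃ₗ[K] V, x * t₀ = t₀ * x → x * t₁ = t₁ * x → x * t₂ = t₂ * x →
        (∀ v, x (e (e v) - e v - e v + v) = e (e v) - e v - e v + v) → ∀ v, x (P v) = P v) := by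
  have h8 : (8 : K) ≠ 0 := by
    have := (CharP.cast_eq_zero_iff K 3 8).not.2 (by norm_num)
    simpa using this
  have h4 : (4 : K) ≠ 0 := by
    have := (CharP.cast_eq_zero_iff K 3 4).not.2 (by norm_num)
    simpa using this
  have hex : ∃ a c : K, (a = 1 ∨ a = -1) ∧ (c = 1 ∨ c = -1) ∧ L2b_P t₀ t₁ t₂ a (-a) c ≠ 0 := by
    by_contra hcon
    push_neg at hcon
    apply hne
    have hall : ∀ v, t₀ (t₁ v) = v := by
      intro v
      have p1 := LinearMap.congr_fun (hcon 1 1 (Or.inl rfl) (Or.inl rfl)) v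
      have p2 := LinearMap.congr_fun (hcon 1 (-1) (Or.inl rfl) (Or.inr rfl)) v
      have p3 := LinearMap.congr_fun (hcon (-1) 1 (Or.inr rfl) (Or.inl rfl)) v
      have p4 := LinearMap.congr_fun (hcon (-1) (-1) (Or.inr rfl) (Or.inr rfl)) v
      rw [L2b_P_apply, LinearMap.zero_apply] at p1 p2 p3 p4
      have h : (4 : K) • (v - t₀ (t₁ v)) = 0 := by
        linear_combination (norm := module) p1 + p2 + p3 + p4
      have := (smul_eq_zero.1 h).resolve_left h4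
      exact (sub_eq_zero.1 this).symm
    have h01 : t₀ * t₁ = 1 := by
      ext v
      simpa [LinearEquiv.mul_apply] using hall v
    calc t₀ = t₀ * (t₁ * t₁) := by rw [h11, mul_one]
      _ = t₁ := by rw [← mul_assoc, h01, one_mul]
  obtain ⟨a, c, ha, hc, hP⟩ := hex
  exact ⟨_, hP, L2b_main h8 t₀ t₁ t₂ e h00 h11 h22 c01 c02 c12 e0 e1 e2 a c ha hc⟩

end Cfsg.Agent.Lib.Helper46.DL
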