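import Mathlib
import Cfsg.Agent.Lib.Helper46.DL.Defs

/-!
# Farm DL (helper46, S3789), piece MA

Maschke for the fixed space.
-/

set_option autoImplicit false
set_option linter.unusedSectionVars false
set_option linter.unusedVariables false

namespace Cfsg.Agent.Lib.Helper46.DL

variable {K : Type*} [Field K] {V : Type*} [AddCommGroup V] [Module K V]

theorem maschke (N : Subgroup (V ≃ₗ[K] V)) [Finite N] (hN : (Nat.card N : K) ≠ 0) :
    ∃ U U' : Submodule K V, (∀ w, w ∈ U ↔ ∀ n ∈ N, n w = w) ∧ U ⊔ U' = ⊤ ∧ U ⊓ U' = ⊥ ∧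
      ∀ h : V ≃ₗ[K] V, (∀ n ∈ N, h * n * h⁻¹ ∈ N) →
        (∀ u ∈ U, h u ∈ U) ∧ (∀ u ∈ U', h u ∈ U') := by
  classical
  haveI : Fintype N := Fintype.ofFinite N
  set c : K := (Nat.card N : K) with hc
  let σ : V →ₗ[K] V := ∑ n : N, ((n : V ≃ₗ[K] V) : V →ₗ[K] V)
  have hσ : ∀ v, σ v = ∑ n : N, (n : V ≃ₗ[K] V) v := by
    intro v
    simp [σ, LinearMap.sum_apply]
  let U : Submodule K V :=
    { carrier := {w | ∀ n ∈ N, n w = w}
      add_mem' := by
        intro a b ha hb n hn
        rw [map_add, ha n hn, hb n hn]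
      zero_mem' := by
        intro n hn
        exact map_zero _
      smul_mem' := by
        intro r a ha n hn
        rw [map_smul, ha n hn] }
  have hU : ∀ w, w ∈ U ↔ ∀ n ∈ N, n w = w := fun w => Iff.rfl
  have h1 : ∀ v, σ v ∈ U := by
    intro v n hn
    rw [hσ, map_sum]
    exact Fintype.sum_equiv (Equiv.mulLeft (⟨n, hn⟩ : N)) _ _ (fun m => by
      simp [LinearEquiv.mul_apply])
  have h2 : ∀ w ∈ U, σ w = c • w := by
    intro w hw
    rw [hσ]
    have : ∀ n : N, (n : V ≃ₗ[K] V) w = w := fun n => hw n n.2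
    simp only [this, Finset.sum_const, Finset.card_univ]
    rw [hc, Nat.card_eq_fintype_card, Nat.cast_smul_eq_nsmul]
  refine ⟨U, LinearMap.ker σ, hU, ?_, ?_, ?_⟩
  · rw [eq_top_iff]
    intro v _
    refine Submodule.mem_sup.2 ⟨c⁻¹ • σ v, U.smul_mem _ (h1 v), v - c⁻¹ • σ v, ?_, by abel⟩
    rw [LinearMap.mem_ker, map_sub, map_smul, h2 _ (h1 v), smul_smul, inv_mul_cancel₀ hN, one_smul,
      sub_self]
  · rw [eq_bot_iff]
    intro w hw
    obtain ⟨hw1, hw2⟩ := Submodule.mem_inf.1 hw
    rw [LinearMap.mem_ker, h2 w hw1] at hw2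
    rcases smul_eq_zero.1 hw2 with h | h
    · exact absurd h hN
    · simpa using h
  · intro h hh
    let f : N → N := fun n => ⟨h * n * h⁻¹, hh n n.2⟩
    have hfi : Function.Injective f := by
      intro a b hab
      have : h * (a : V ≃ₗ[K] V) * h⁻¹ = h * b * h⁻¹ := congrArg Subtype.val hab
      exact Subtype.ext (mul_left_cancel (mul_right_cancel this))
    have hfb : Function.Bijective f := Finite.injective_iff_bijective.1 hfi
    constructor
    · intro u hu n hn
      obtain ⟨n', hn'⟩ := hfb.2 ⟨n, hn⟩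
      have e : h * (n' : V ≃ₗ[K] V) * h⁻¹ = n := congrArg Subtype.val hn'
      have e2 : n * h = h * n' := by rw [← e]; group
      have := congrArg (fun t : V ≃ₗ[K] V => t u) e2
      simp only [LinearEquiv.mul_apply] at this
      rw [this, hu n' n'.2]
    · intro u hu
      rw [LinearMap.mem_ker] at hu ⊢
      have key : σ (h u) = h (σ u) := by
        rw [hσ, hσ, map_sum]
        symm
        refine Fintype.sum_equiv (Equiv.ofBijective f hfb) _ _ (fun m => ?_)
        have e2 : (h * (m : V ≃ₗ[K] V) * h⁻¹) * h = h * m := by group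
        have := congrArg (fun t : V ≃ₗ[K] V => t u) e2
        simp only [LinearEquiv.mul_apply] at this
        simp only [Equiv.ofBijective_apply, f, LinearEquiv.mul_apply]
        exact this.symm
      rw [key, hu, map_zero]

end Cfsg.Agent.Lib.Helper46.DL
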