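import Mathlib
import Cfsg.Agent.Lib.Helper46.DL.Defs
import Cfsg.Agent.Lib.Helper46.DL.SPL
import Cfsg.Agent.Lib.Helper46.DL.MA

/-!
# Farm DL (helper46, S3789), piece L3

U₀ := {u | ∀ x ∈ ⁅ℰ,ℰ⁆, ∀ g ∈ 𝒬, x (g u) = g u}, N := {n ∈ 𝒬 | ∀ u ∈ U₀, n u = u}, Maschke for N.
-/

set_option autoImplicit false
set_option linter.unusedSectionVars false
set_option linter.unusedVariables false

namespace Cfsg.Agent.Lib.Helper46.DL

variable {K : Type*} [Field K] {V : Type*} [AddCommGroup V] [Module K V]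

open scoped commutatorElement in
theorem L3_comm_le {Γ : Type*} [Group Γ] (E : Subgroup Γ) : ⁅E, E⁆ ≤ E := by
  rw [Subgroup.commutator_le]
  intro a ha b hb
  rw [commutatorElement_def]
  exact mul_mem (mul_mem (mul_mem ha hb) (inv_mem ha)) (inv_mem hb)

open scoped commutatorElement in
theorem L3_conj_mem {Γ : Type*} [Group Γ] (E : Subgroup Γ) {e x : Γ} (he : e ∈ E) (hx : x ∈ ⁅E, E⁆) :
    e * x * e⁻¹ ∈ ⁅E, E⁆ := by
  have hle : ⁅E, E⁆ ≤ E := L3_comm_le E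
  have h1 : ⁅e, x⁆ ∈ ⁅E, E⁆ := Subgroup.commutator_mem_commutator he (hle hx)
  have h2 : e * x * e⁻¹ = ⁅e, x⁆ * x := by
    rw [commutatorElement_def]; group
  rw [h2]
  exact mul_mem h1 hx

theorem fix_trivial [CharP K 3] {𝒬 ℰ : Subgroup (V ≃ₗ[K] V)} (hc : Cfg 2 3 𝒬 ℰ) (hM2 : M2 𝒬 ℰ)
    (hnc : ¬ Comm 𝒬 ℰ) (w : V) (hw : ∀ x ∈ ⁅ℰ, ℰ⁆, ∀ g ∈ 𝒬, x (g w) = g w) : w = 0 := by
  classical
  by_contra hw0
  have hDE : ⁅ℰ, ℰ⁆ ≤ ℰ := L3_comm_le ℰ
  -- the predicate defining `U₀`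
  let P : V → Prop := fun u => ∀ x ∈ ⁅ℰ, ℰ⁆, ∀ g ∈ 𝒬, x (g u) = g u
  have hPQ : ∀ h ∈ 𝒬, ∀ u, P u → P (h u) := by
    intro h hh u hu x hx g hg
    have := hu x hx (g * h) (mul_mem hg hh)
    simpa [LinearEquiv.mul_apply] using this
  have hPE : ∀ e ∈ ℰ, ∀ u, P u → P (e u) := by
    intro e he u hu x hx g hg
    have hx' : e⁻¹ * x * e ∈ ⁅ℰ, ℰ⁆ := by
      have := L3_conj_mem ℰ (inv_mem he) hx
      simpa using this
    have hg' : e⁻¹ * g * e ∈ 𝒬 := by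
      have := hc.norm e⁻¹ (inv_mem he) g hg
      simpa using this
    have h1 := hu _ hx' _ hg'
    have h2 : x * g * e = e * ((e⁻¹ * x * e) * (e⁻¹ * g * e)) := by group
    have h3 : g * e = e * (e⁻¹ * g * e) := by group
    have h2' := congrArg (fun t : V ≃ₗ[K] V => t u) h2
    have h3' := congrArg (fun t : V ≃ₗ[K] V => t u) h3
    simp only [LinearEquiv.mul_apply] at h1 h2' h3'
    rw [h2', h1, ← h3']
  let N : Subgroup (V ≃ₗ[K] V) :=
    { carrier := {n | n ∈ 𝒬 ∧ ∀ u, P u → n u = u}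
      mul_mem' := by
        intro a b ha hb
        refine ⟨mul_mem ha.1 hb.1, fun u hu => ?_⟩
        rw [LinearEquiv.mul_apply, hb.2 u hu, ha.2 u hu]
      one_mem' := ⟨one_mem _, fun u _ => rfl⟩
      inv_mem' := by
        intro a ha
        refine ⟨inv_mem ha.1, fun u hu => ?_⟩
        have h := ha.2 u hu
        have : a⁻¹ (a u) = u := by
          rw [← LinearEquiv.mul_apply, inv_mul_cancel]; rfl
        rw [h] at this
        exact this }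
  have hNmem : ∀ n, n ∈ N ↔ (n ∈ 𝒬 ∧ ∀ u, P u → n u = u) := fun n => Iff.rfl
  have hNQ : N ≤ 𝒬 := fun n hn => hn.1
  have := hc.finQ
  have : Finite N := Finite.of_injective (Subgroup.inclusion hNQ) (Subgroup.inclusion_injective hNQ)
  have hpN : IsPGroup 2 N := hc.pQ.to_le hNQ
  have hcard : (Nat.card N : K) ≠ 0 := by
    obtain ⟨k, hk⟩ := IsPGroup.iff_card.1 hpN
    rw [hk]
    intro h0
    rw [CharP.cast_eq_zero_iff K 3] at h0
    have h3 : Nat.Prime 3 := by norm_num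
    have := h3.dvd_of_dvd_pow h0
    omega
  have hinv : ∀ (h : V ≃ₗ[K] V) (v : V), h (h⁻¹ v) = v := by
    intro h v
    rw [← LinearEquiv.mul_apply, mul_inv_cancel]; rfl
  have hinv' : ∀ (h : V ≃ₗ[K] V) (v : V), h⁻¹ (h v) = v := by
    intro h v
    rw [← LinearEquiv.mul_apply, inv_mul_cancel]; rfl
  have hnormQ : ∀ h ∈ 𝒬, ∀ n ∈ N, h * n * h⁻¹ ∈ N := by
    intro h hh n hn
    refine ⟨mul_mem (mul_mem hh hn.1) (inv_mem hh), fun u hu => ?_⟩
    simp only [LinearEquiv.mul_apply]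
    rw [hn.2 _ (hPQ _ (inv_mem hh) u hu), hinv]
  have hnormE : ∀ h ∈ ℰ, ∀ n ∈ N, h * n * h⁻¹ ∈ N := by
    intro h hh n hn
    refine ⟨hc.norm h hh n hn.1, fun u hu => ?_⟩
    simp only [LinearEquiv.mul_apply]
    rw [hn.2 _ (hPE _ (inv_mem hh) u hu), hinv]
  have hcomm : ∀ x ∈ ⁅ℰ, ℰ⁆, ∀ g ∈ 𝒬, x * g * x⁻¹ * g⁻¹ ∈ N := by
    intro x hx g hg
    refine ⟨mul_mem (hc.norm x (hDE hx) g hg) (inv_mem hg), fun u hu => ?_⟩
    simp only [LinearEquiv.mul_apply]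
    have h1 : x (g⁻¹ u) = g⁻¹ u := hu x hx g⁻¹ (inv_mem hg)
    have h2 : x⁻¹ (g⁻¹ u) = g⁻¹ u := by
      conv_lhs => rw [← h1]
      exact hinv' x _
    have h3 : x u = u := hu x hx 1 (one_mem _)
    rw [h2, hinv, h3]
  obtain ⟨U, U', hU, hsup, hinf, hinvar⟩ := maschke N hcard
  have hwU : w ∈ U := (hU w).2 (fun n hn => hn.2 w hw)
  have hU'top : U' ≠ ⊤ := by
    intro h
    have : w ∈ U ⊓ U' := Submodule.mem_inf.2 ⟨hwU, by rw [h]; trivial⟩
    rw [hinf] at this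
    exact hw0 (by simpa using this)
  have hUtop : U ≠ ⊤ := by
    intro h
    apply hnc
    intro x hx g hg
    have h1 : x * g * x⁻¹ * g⁻¹ = 1 := by
      apply LinearEquiv.ext
      intro v
      have hv : v ∈ U := by rw [h]; trivial
      exact (hU v).1 hv _ (hcomm x hx g hg)
    have h2 : x * g = (x * g * x⁻¹ * g⁻¹) * (g * x) := by group
    rw [h2, h1, one_mul]
  exact hnc (split hM2 U U' hUtop hU'top hsup
    (fun g hg => (hinvar g (hnormQ g hg)).1) (fun e he => (hinvar e (hnormE e he)).1)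
    (fun g hg => (hinvar g (hnormQ g hg)).2) (fun e he => (hinvar e (hnormE e he)).2))

end Cfsg.Agent.Lib.Helper46.DL
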