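import Mathlib
import Cfsg.Agent.Lib.Helper46.DL.Defs
import Cfsg.Agent.Lib.Helper46.DL.AB
import Cfsg.Agent.Lib.Helper46.DL.L1
import Cfsg.Agent.Lib.Helper46.DL.L2a
import Cfsg.Agent.Lib.Helper46.DL.L2b
import Cfsg.Agent.Lib.Helper46.DL.L3

/-!
# Farm DL (helper46, S3789), piece F4 (helper3)
-/

set_option autoImplicit false
set_option linter.unusedSectionVars false
set_option linter.unusedVariables false

namespace Cfsg.Agent.Lib.Helper46.DL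

variable {K : Type*} [Field K] {V : Type*} [AddCommGroup V] [Module K V]

theorem F4_comm_le {G : Type*} [Group G] (E : Subgroup G) : ⁅E, E⁆ ≤ E := by
  rw [Subgroup.commutator_le]
  intro a ha b hb
  rw [commutatorElement_def]
  exact E.mul_mem (E.mul_mem (E.mul_mem ha hb) (E.inv_mem ha)) (E.inv_mem hb)

/-- the centre of `Q` is invariant under a group normalizing `Q` -/
theorem F4_conjZ {G : Type*} [Group G] {Q E : Subgroup G}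
    (hnorm : ∀ e ∈ E, ∀ g ∈ Q, e * g * e⁻¹ ∈ Q) {f s : G} (hf : f ∈ E) (hs : s ∈ Q)
    (hsQ : ∀ g ∈ Q, s * g = g * s) :
    f * s * f⁻¹ ∈ Q ∧ ∀ g ∈ Q, (f * s * f⁻¹) * g = g * (f * s * f⁻¹) := by
  refine ⟨hnorm f hf s hs, fun g hg => ?_⟩
  have h1 : f⁻¹ * g * f⁻¹⁻¹ ∈ Q := hnorm f⁻¹ (E.inv_mem hf) g hg
  have h2 := hsQ _ h1
  calc f * s * f⁻¹ * g = f * (s * (f⁻¹ * g * f⁻¹⁻¹)) * f⁻¹ := by group
    _ = f * ((f⁻¹ * g * f⁻¹⁻¹) * s) * f⁻¹ := by rw [h2]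
    _ = g * (f * s * f⁻¹) := by group

theorem F4 [CharP K 3] [FiniteDimensional K V] {𝒬 ℰ : Subgroup (V ≃ₗ[K] V)} (hc : Cfg 2 3 𝒬 ℰ)
    (hM2 : M2 𝒬 ℰ) (hnc : ¬ Comm 𝒬 ℰ) (t : V ≃ₗ[K] V) (ht : t ∈ 𝒬) (htQ : ∀ g ∈ 𝒬, t * g = g * t)
    (ht2 : t * t = 1) (ht1 : t ≠ 1) : ∀ v : V, t v = -v := by
  by_cases hcen : ∀ e ∈ ℰ, t * e = e * t
  · exact central_inv_fixed hM2 hnc t htQ hcen ht2 ht1
  exfalso
  push Not at hcen
  obtain ⟨e, he, hte⟩ := hcen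
  have hne : e * t * e⁻¹ ≠ t := by
    intro h
    apply hte
    calc t * e = (e * t * e⁻¹) * e := by rw [h]
      _ = e * t := by group
  obtain ⟨k, hk⟩ := hc.pE ⟨e, he⟩
  have hek : e ^ 3 ^ k = 1 := congrArg Subtype.val hk
  obtain ⟨j, hj1, hj2⟩ := cube_fix e t k hek hne
  set e' := e ^ j with he'
  have he'E : e' ∈ ℰ := ℰ.pow_mem he j
  set t₁ := e' * t * e'⁻¹ with ht₁
  set t₂ := e' * t₁ * e'⁻¹ with ht₂
  obtain ⟨z1, z1'⟩ := F4_conjZ hc.norm he'E ht htQ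
  obtain ⟨z2, z2'⟩ := F4_conjZ hc.norm he'E z1 z1'
  have h11 : t₁ * t₁ = 1 := by
    calc t₁ * t₁ = e' * (t * t) * e'⁻¹ := by rw [ht₁]; group
      _ = 1 := by rw [ht2]; group
  have h22 : t₂ * t₂ = 1 := by
    calc t₂ * t₂ = e' * (t₁ * t₁) * e'⁻¹ := by rw [ht₂]; group
      _ = 1 := by rw [h11]; group
  obtain ⟨P, hP0, hP1, hP2⟩ := proj_exists t t₁ t₂ e' ht2 h11 h22 (htQ _ z1) (htQ _ z2) (z1' _ z2)
    rfl rfl hj2 (Ne.symm hj1)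
  have hex : ∃ v, P v ≠ 0 := by
    by_contra hcon
    push Not at hcon
    exact hP0 (LinearMap.ext hcon)
  obtain ⟨v, hv⟩ := hex
  apply hv
  -- the centre of 𝒬
  let Z : Subgroup (V ≃ₗ[K] V) := 𝒬 ⊓ Subgroup.centralizer (𝒬 : Set (V ≃ₗ[K] V))
  have hZ : ∀ s, s ∈ Z ↔ s ∈ 𝒬 ∧ ∀ g ∈ 𝒬, s * g = g * s := by
    intro s
    simp only [Z, Subgroup.mem_inf, Subgroup.mem_centralizer_iff, SetLike.mem_coe]
    constructor
    · rintro ⟨a, b⟩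
      exact ⟨a, fun g hg => (b g hg).symm⟩
    · rintro ⟨a, b⟩
      exact ⟨a, fun g hg => (b g hg).symm⟩
  have hxZ : ∀ x ∈ ⁅ℰ, ℰ⁆, ∀ a ∈ Z, x * a = a * x := by
    intro x hx
    apply abel hc x hx Z inf_le_left
    · intro a ha b hb
      exact ((hZ a).1 ha).2 b ((hZ b).1 hb).1
    · intro a ha
      obtain ⟨a1, a2⟩ := (hZ a).1 ha
      exact (hZ _).2 (F4_conjZ hc.norm (F4_comm_le ℰ hx) a1 a2)
  apply fix_trivial hc hM2 hnc (P v)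
  intro x hx g hg
  rw [hP1 g (htQ g hg).symm (z1' g hg).symm (z2' g hg).symm v]
  exact hP2 x (hxZ x hx t ((hZ t).2 ⟨ht, htQ⟩)) (hxZ x hx t₁ ((hZ t₁).2 ⟨z1, z1'⟩))
    (hxZ x hx t₂ ((hZ t₂).2 ⟨z2, z2'⟩)) (hc.cub x hx e' he'E) (g v)

end Cfsg.Agent.Lib.Helper46.DL
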