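import Mathlib
import Cfsg.Agent.Lib.Helper46.DL.Defs
import Cfsg.Agent.Lib.Helper47.Frat
import Cfsg.Agent.Lib.Helper2.PGroupFrattini

/-!
# Farm DL (helper46, S3789), piece G2  (by helper89)

Squares and commutators of 𝒬 commute with x: they lie in the Frattini subgroup, a proper
ℰ-invariant subgroup of 𝒬.
-/

set_option autoImplicit false
set_option linter.unusedSectionVars false
set_option linter.unusedVariables false

namespace Cfsg.Agent.Lib.Helper46.DL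

open scoped commutatorElement

theorem G2 {Γ : Type*} [Group Γ] {𝒬 ℰ : Subgroup Γ} {x : Γ} (h : GCfg 𝒬 ℰ x) :
    ∀ g ∈ 𝒬, ∀ k ∈ 𝒬, x * (g * g) = (g * g) * x ∧
      x * (g * k * g⁻¹ * k⁻¹) = (g * k * g⁻¹ * k⁻¹) * x := by
  have hfin : Finite 𝒬 := h.finQ
  have hp2 : Fact (Nat.Prime 2) := ⟨Nat.prime_two⟩
  set Φ : Subgroup Γ := (frattini ↥𝒬).map 𝒬.subtype with hΦ
  have hΦle : Φ ≤ 𝒬 := Subgroup.map_subtype_le _
  have hΦne : Φ ≠ 𝒬 := by
    intro heq
    have htop : frattini ↥𝒬 = ⊤ := by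
      rw [eq_top_iff]
      intro y _
      have hy : (y : Γ) ∈ Φ := by rw [heq]; exact y.2
      obtain ⟨y', hy', hyy⟩ := hy
      have : y' = y := Subtype.ext hyy
      rwa [this] at hy'
    obtain ⟨g, hg, hgx⟩ := h.nc
    have hnt : (⊥ : Subgroup ↥𝒬) ≠ ⊤ := by
      intro hbt
      have h1 : (⟨g, hg⟩ : ↥𝒬) ∈ (⊥ : Subgroup ↥𝒬) := by rw [hbt]; exact Subgroup.mem_top _
      rw [Subgroup.mem_bot] at h1
      have h2 : g = 1 := congrArg Subtype.val h1
      apply hgx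
      rw [h2, mul_one, one_mul]
    rcases eq_top_or_exists_le_coatom (⊥ : Subgroup ↥𝒬) with h1 | ⟨M, hM, -⟩
    · exact hnt h1
    · have h2 := frattini_le_coatom hM
      rw [htop] at h2
      exact hM.1 (eq_top_iff.2 h2)
  have hΦinv : ∀ e ∈ ℰ, ∀ g ∈ Φ, e * g * e⁻¹ ∈ Φ := by
    intro e he g hg
    have hen : e ∈ Subgroup.normalizer (𝒬 : Set Γ) := by
      rw [Subgroup.mem_normalizer_iff]
      intro n
      constructor
      · exact h.norm e he n
      · intro hn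
        have := h.norm e⁻¹ (ℰ.inv_mem he) _ hn
        have h2 : e⁻¹ * (e * n * e⁻¹) * e⁻¹⁻¹ = n := by group
        rwa [h2] at this
    have h3 := Cfsg.Agent.Lib.Helper47.normalizer_le_normalizer_frattiniOf 𝒬 hen
    exact (Subgroup.mem_normalizer_iff.1 h3 g).1 hg
  have hmin := h.min Φ hΦle hΦne hΦinv
  intro g hg k hk
  constructor
  · apply hmin
    refine ⟨(⟨g, hg⟩ : ↥𝒬) ^ 2, Cfsg.Agent.Lib.Helper2.pow_p_mem_frattini h.pQ _, ?_⟩
    simp [pow_two]
  · apply hmin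
    refine ⟨⁅(⟨g, hg⟩ : ↥𝒬), (⟨k, hk⟩ : ↥𝒬)⁆, Cfsg.Agent.Lib.Helper2.commutator_le_frattini h.pQ
      (Subgroup.commutator_mem_commutator (Subgroup.mem_top _) (Subgroup.mem_top _)), ?_⟩
    simp [commutatorElement_def]

end Cfsg.Agent.Lib.Helper46.DL
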