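import Mathlib
import Cfsg.Agent.Lib.Helper46.DL.Defs

/-!
# Farm DL (helper46, S3789), piece G3  (by helper89)

`[𝒬, x] = 𝒬`.
-/

set_option autoImplicit false
set_option linter.unusedSectionVars false
set_option linter.unusedVariables false

namespace Cfsg.Agent.Lib.Helper46.DL

/-- an element of a `2`-group with trivial cube is trivial -/
theorem G3_eq_one {Γ : Type*} [Group Γ] {𝒬 : Subgroup Γ} (hQ : IsPGroup 2 𝒬) {ζ : Γ} (hζ : ζ ∈ 𝒬)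
    (h3 : ζ * ζ * ζ = 1) : ζ = 1 := by
  obtain ⟨k, hk⟩ := hQ ⟨ζ, hζ⟩
  have hk' : ζ ^ 2 ^ k = 1 := by simpa using congrArg Subtype.val hk
  have h3' : ζ ^ 3 = 1 := by rw [pow_succ, pow_two]; exact h3
  have h1 : orderOf ζ ∣ 3 := orderOf_dvd_of_pow_eq_one h3'
  have h2 : orderOf ζ ∣ 2 ^ k := orderOf_dvd_of_pow_eq_one hk'
  have hcop : Nat.Coprime 3 (2 ^ k) := Nat.Coprime.pow_right k (by norm_num)
  exact orderOf_eq_one_iff.1 (Nat.eq_one_of_dvd_coprimes hcop h1 h2)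

/-- if `x³ = 1`, `x y x⁻¹ = y ζ` and `ζ` commutes with `x` then `ζ³ = 1` -/
theorem G3_cube {Γ : Type*} [Group Γ] {x y ζ : Γ} (x3 : x * x * x = 1)
    (e1 : x * y * x⁻¹ = y * ζ) (e2 : x * ζ = ζ * x) : ζ * ζ * ζ = 1 := by
  have e2' : x * ζ * x⁻¹ = ζ := by rw [e2, mul_inv_cancel_right]
  have h2 : x * (y * ζ) * x⁻¹ = y * ζ * ζ := by
    calc x * (y * ζ) * x⁻¹ = (x * y * x⁻¹) * (x * ζ * x⁻¹) := by group
      _ = y * ζ * ζ := by rw [e1, e2']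
  have h3 : x * (y * ζ * ζ) * x⁻¹ = y * ζ * ζ * ζ := by
    calc x * (y * ζ * ζ) * x⁻¹ = (x * (y * ζ) * x⁻¹) * (x * ζ * x⁻¹) := by group
      _ = y * ζ * ζ * ζ := by rw [h2, e2']
  have h4 : y = y * ζ * ζ * ζ := by
    calc y = (x * x * x) * y * (x * x * x)⁻¹ := by rw [x3]; group
      _ = x * (x * (x * y * x⁻¹) * x⁻¹) * x⁻¹ := by group
      _ = y * ζ * ζ * ζ := by rw [e1, h2, h3]
  have h5 : y * 1 = y * (ζ * ζ * ζ) := by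
    rw [mul_one]
    calc y = y * ζ * ζ * ζ := h4
      _ = y * (ζ * ζ * ζ) := by group
  exact (mul_left_cancel h5).symm

theorem G3 {Γ : Type*} [Group Γ] {𝒬 ℰ : Subgroup Γ} {x : Γ} (h : GCfg 𝒬 ℰ x) :
    Subgroup.closure {c | ∃ g ∈ 𝒬, c = g * x * g⁻¹ * x⁻¹} = 𝒬 := by
  set 𝒦 : Subgroup Γ := Subgroup.closure {c | ∃ g ∈ 𝒬, c = g * x * g⁻¹ * x⁻¹} with h𝒦
  have hle : 𝒦 ≤ 𝒬 := by
    rw [h𝒦, Subgroup.closure_le]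
    rintro _ ⟨g, hg, rfl⟩
    have h1 := h.norm x h.xE g⁻¹ (𝒬.inv_mem hg)
    have h2 : g * x * g⁻¹ * x⁻¹ = g * (x * g⁻¹ * x⁻¹) := by group
    rw [h2]
    exact 𝒬.mul_mem hg h1
  have hinv : ∀ e ∈ ℰ, ∀ c ∈ 𝒦, e * c * e⁻¹ ∈ 𝒦 := by
    intro e he
    have h1 : 𝒦 ≤ 𝒦.comap (MulAut.conj e).toMonoidHom := by
      rw [h𝒦, Subgroup.closure_le]
      rintro _ ⟨g, hg, rfl⟩
      show e * (g * x * g⁻¹ * x⁻¹) * e⁻¹ ∈ 𝒦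
      have hg' : e * g * e⁻¹ ∈ 𝒬 := h.norm e he g hg
      have hw : x * (e * g * e⁻¹)⁻¹ * x⁻¹ ∈ 𝒬 := h.norm x h.xE _ (𝒬.inv_mem hg')
      have hmw := h.xc e he _ hw
      have h2 : e * (g * x * g⁻¹ * x⁻¹) * e⁻¹
          = (e * g * e⁻¹) * x * (e * g * e⁻¹)⁻¹ * x⁻¹ := by
        calc e * (g * x * g⁻¹ * x⁻¹) * e⁻¹
            = (e * g * e⁻¹) * ((e * x * e⁻¹ * x⁻¹) * (x * (e * g * e⁻¹)⁻¹ * x⁻¹))
              * (e * x * e⁻¹ * x⁻¹)⁻¹ := by group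
          _ = (e * g * e⁻¹) * ((x * (e * g * e⁻¹)⁻¹ * x⁻¹) * (e * x * e⁻¹ * x⁻¹))
              * (e * x * e⁻¹ * x⁻¹)⁻¹ := by rw [hmw]
          _ = (e * g * e⁻¹) * x * (e * g * e⁻¹)⁻¹ * x⁻¹ := by group
      rw [h2]
      exact Subgroup.subset_closure ⟨_, hg', rfl⟩
    intro c hc
    exact h1 hc
  by_contra hne
  have hmin := h.min 𝒦 hle hne hinv
  obtain ⟨g, hg, hgx⟩ := h.nc
  apply hgx
  have hζ𝒦 : g * x * g⁻¹ * x⁻¹ ∈ 𝒦 := Subgroup.subset_closure ⟨g, hg, rfl⟩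
  have e2 := hmin _ hζ𝒦
  have e1 : x * g⁻¹ * x⁻¹ = g⁻¹ * (g * x * g⁻¹ * x⁻¹) := by group
  have h3 := G3_cube h.x3 e1 e2
  have h4 := G3_eq_one h.pQ (hle hζ𝒦) h3
  calc x * g = (g * x * g⁻¹ * x⁻¹)⁻¹ * (g * x) := by group
    _ = g * x := by rw [h4, inv_one, one_mul]

end Cfsg.Agent.Lib.Helper46.DL
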