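import Mathlib
import Cfsg.Agent.Lib.Helper46.DL.Defs
import Cfsg.Agent.Lib.Helper46.DL.G2
import Cfsg.Agent.Lib.Helper46.DL.G3

/-!
# Farm DL (helper46, S3789), piece G4  (by helper89)

`C_𝒬(x) ≤ Z(𝒬)`.
-/

set_option autoImplicit false
set_option linter.unusedSectionVars false
set_option linter.unusedVariables false

namespace Cfsg.Agent.Lib.Helper46.DL

theorem G4 {Γ : Type*} [Group Γ] {𝒬 ℰ : Subgroup Γ} {x : Γ} (h : GCfg 𝒬 ℰ x) :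
    ∀ s ∈ 𝒬, x * s = s * x → ∀ g ∈ 𝒬, s * g = g * s := by
  intro s hs𝒬 hs
  have hsx' : s * x⁻¹ = x⁻¹ * s := by
    calc s * x⁻¹ = x⁻¹ * (x * s) * x⁻¹ := by group
      _ = x⁻¹ * (s * x) * x⁻¹ := by rw [hs]
      _ = x⁻¹ * s := by group
  have hle : 𝒬 ≤ Subgroup.centralizer {s} := by
    conv_lhs => rw [← G3 h]
    rw [Subgroup.closure_le]
    rintro _ ⟨g, hg, rfl⟩
    show _ ∈ Subgroup.centralizer {s}
    rw [Subgroup.mem_centralizer_iff]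
    intro s' hs'
    rw [Set.mem_singleton_iff] at hs'
    subst hs'
    have hζ : x * (g⁻¹ * s' * g⁻¹⁻¹ * s'⁻¹) = (g⁻¹ * s' * g⁻¹⁻¹ * s'⁻¹) * x :=
      (G2 h g⁻¹ (𝒬.inv_mem hg) s' hs𝒬).2
    calc s' * (g * x * g⁻¹ * x⁻¹)
        = g * (g⁻¹ * s' * g⁻¹⁻¹ * s'⁻¹) * (s' * x) * g⁻¹ * x⁻¹ := by group
      _ = g * ((g⁻¹ * s' * g⁻¹⁻¹ * s'⁻¹) * x) * s' * g⁻¹ * x⁻¹ := by rw [← hs]; group
      _ = g * (x * (g⁻¹ * s' * g⁻¹⁻¹ * s'⁻¹)) * s' * g⁻¹ * x⁻¹ := by rw [hζ]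
      _ = g * x * g⁻¹ * (s' * x⁻¹) := by group
      _ = g * x * g⁻¹ * (x⁻¹ * s') := by rw [hsx']
      _ = (g * x * g⁻¹ * x⁻¹) * s' := by group
  intro g hg
  exact (Subgroup.mem_centralizer_iff.1 (hle hg)) s (Set.mem_singleton s)

end Cfsg.Agent.Lib.Helper46.DL
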