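import Mathlib
import Cfsg.Agent.Lib.Helper46.DL.Defs
import Cfsg.Agent.Lib.Helper46.DL.G2
import Cfsg.Agent.Lib.Helper46.DL.G3
import Cfsg.Agent.Lib.Helper46.DL.G4

/-!
# Farm DL (helper46, S3789), piece G6  (by helper89)
-/

set_option autoImplicit false
set_option linter.unusedSectionVars false
set_option linter.unusedVariables false

namespace Cfsg.Agent.Lib.Helper46.DL

theorem G6 {Γ : Type*} [Group Γ] {𝒬 ℰ : Subgroup Γ} {x : Γ} (h : GCfg 𝒬 ℰ x) :
    ∀ a ∈ 𝒬, (x * (a * (x * a * x⁻¹) * (x * (x * a * x⁻¹) * x⁻¹)) =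
        (a * (x * a * x⁻¹) * (x * (x * a * x⁻¹) * x⁻¹)) * x) ∧
      (x * a ≠ a * x → a * (x * a * x⁻¹) ≠ (x * a * x⁻¹) * a) := by
  intro a ha
  obtain ⟨b, hb⟩ : ∃ b, b = x * a * x⁻¹ := ⟨_, rfl⟩
  obtain ⟨c, hc⟩ : ∃ c, c = x * b * x⁻¹ := ⟨_, rfl⟩
  have hb𝒬 : b ∈ 𝒬 := by rw [hb]; exact h.norm x h.xE a ha
  have hc𝒬 : c ∈ 𝒬 := by rw [hc]; exact h.norm x h.xE b hb𝒬
  have ha' : x * c * x⁻¹ = a := by
    rw [hc, hb]
    calc x * (x * (x * a * x⁻¹) * x⁻¹) * x⁻¹ = (x * x * x) * a * (x * x * x)⁻¹ := by group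
      _ = a := by rw [h.x3]; group
  rw [← hb, ← hc]
  constructor
  · have hu𝒬 : a * b * c ∈ 𝒬 := 𝒬.mul_mem (𝒬.mul_mem ha hb𝒬) hc𝒬
    have e1 : x * (a * b * c) * x⁻¹
        = (a * b * c) * ((a * b * c)⁻¹ * a⁻¹ * (a * b * c)⁻¹⁻¹ * a⁻¹⁻¹) := by
      calc x * (a * b * c) * x⁻¹ = (x * a * x⁻¹) * (x * b * x⁻¹) * (x * c * x⁻¹) := by group
        _ = b * c * a := by rw [← hb, ← hc, ha']
        _ = (a * b * c) * ((a * b * c)⁻¹ * a⁻¹ * (a * b * c)⁻¹⁻¹ * a⁻¹⁻¹) := by group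
    have e2 := (G2 h (a * b * c)⁻¹ (𝒬.inv_mem hu𝒬) a⁻¹ (𝒬.inv_mem ha)).2
    have hζ𝒬 : (a * b * c)⁻¹ * a⁻¹ * (a * b * c)⁻¹⁻¹ * a⁻¹⁻¹ ∈ 𝒬 :=
      𝒬.mul_mem (𝒬.mul_mem (𝒬.mul_mem (𝒬.inv_mem hu𝒬) (𝒬.inv_mem ha))
        (𝒬.inv_mem (𝒬.inv_mem hu𝒬))) (𝒬.inv_mem (𝒬.inv_mem ha))
    have h1 := G3_eq_one h.pQ hζ𝒬 (G3_cube h.x3 e1 e2)
    rw [h1, mul_one] at e1
    calc x * (a * b * c) = (x * (a * b * c) * x⁻¹) * x := by group
      _ = (a * b * c) * x := by rw [e1]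
  · intro hxa hab
    apply hxa
    have hbc : b * c = c * b := by
      calc b * c = (x * a * x⁻¹) * (x * b * x⁻¹) := by rw [← hb, ← hc]
        _ = x * (a * b) * x⁻¹ := by group
        _ = x * (b * a) * x⁻¹ := by rw [hab]
        _ = (x * b * x⁻¹) * (x * a * x⁻¹) := by group
        _ = c * b := by rw [← hb, ← hc]
    have hca : c * a = a * c := by
      calc c * a = (x * b * x⁻¹) * (x * c * x⁻¹) := by rw [← hc, ha']
        _ = x * (b * c) * x⁻¹ := by group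
        _ = x * (c * b) * x⁻¹ := by rw [hbc]
        _ = (x * c * x⁻¹) * (x * b * x⁻¹) := by group
        _ = a * c := by rw [← hc, ha']
    have hcomm : ∀ y ∈ ({a, b, c} : Set Γ), ∀ y' ∈ ({a, b, c} : Set Γ), y * y' = y' * y := by
      rintro y (rfl | rfl | rfl) y' (rfl | rfl | rfl)
      · rfl
      · exact hab
      · exact hca.symm
      · exact hab.symm
      · rfl
      · exact hbc
      · exact hca
      · exact hbc.symm
      · rfl
    have hIC := Subgroup.isMulCommutative_closure hcomm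
    have hA : ∀ y ∈ Subgroup.closure ({a, b, c} : Set Γ), ∀ y' ∈ Subgroup.closure ({a, b, c} : Set Γ),
        y * y' = y' * y := by
      intro y hy y' hy'
      exact congrArg Subtype.val
        (hIC.is_comm.comm (⟨y, hy⟩ : Subgroup.closure ({a, b, c} : Set Γ)) ⟨y', hy'⟩)
    have hle : Subgroup.closure ({a, b, c} : Set Γ) ≤ 𝒬 := by
      rw [Subgroup.closure_le]
      rintro y (rfl | rfl | rfl)
      · exact ha
      · exact hb𝒬
      · exact hc𝒬
    have hinv : ∀ y ∈ Subgroup.closure ({a, b, c} : Set Γ),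
        x * y * x⁻¹ ∈ Subgroup.closure ({a, b, c} : Set Γ) := by
      have h1 : Subgroup.closure ({a, b, c} : Set Γ)
          ≤ (Subgroup.closure ({a, b, c} : Set Γ)).comap (MulAut.conj x).toMonoidHom := by
        rw [Subgroup.closure_le]
        rintro y (rfl | rfl | rfl)
        · show x * y * x⁻¹ ∈ Subgroup.closure ({y, b, c} : Set Γ)
          rw [← hb]
          exact Subgroup.subset_closure (by simp)
        · show x * y * x⁻¹ ∈ Subgroup.closure ({a, y, c} : Set Γ)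
          rw [← hc]
          exact Subgroup.subset_closure (by simp)
        · show x * y * x⁻¹ ∈ Subgroup.closure ({a, b, y} : Set Γ)
          rw [ha']
          exact Subgroup.subset_closure (by simp)
      intro y hy
      exact h1 hy
    exact h.ab _ hle hA hinv a (Subgroup.subset_closure (by simp))

end Cfsg.Agent.Lib.Helper46.DL
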