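import Mathlib
import Cfsg.Agent.Lib.Helper46.DL.Defs
import Cfsg.Agent.Lib.Helper46.DL.G2
import Cfsg.Agent.Lib.Helper46.DL.G4

/-!
# Farm DL (helper46, S3789), piece G5  (by helper89)

`𝒬' = ⟨z⟩` of order two.
-/

set_option autoImplicit false
set_option linter.unusedSectionVars false
set_option linter.unusedVariables false

namespace Cfsg.Agent.Lib.Helper46.DL

theorem G5 {Γ : Type*} [Group Γ] {𝒬 ℰ : Subgroup Γ} {x : Γ} (h : GCfg 𝒬 ℰ x) :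
    ∃ z ∈ 𝒬, z ≠ 1 ∧ z * z = 1 ∧ (∀ g ∈ 𝒬, z * g = g * z) ∧ x * z = z * x ∧
      ∀ g ∈ 𝒬, ∀ k ∈ 𝒬, g * k = k * g ∨ g * k = z * (k * g) := by
  have hmem : ∀ g ∈ 𝒬, ∀ k ∈ 𝒬, g * k * g⁻¹ * k⁻¹ ∈ 𝒬 := fun g hg k hk =>
    𝒬.mul_mem (𝒬.mul_mem (𝒬.mul_mem hg hk) (𝒬.inv_mem hg)) (𝒬.inv_mem hk)
  have hcx : ∀ g ∈ 𝒬, ∀ k ∈ 𝒬, x * (g * k * g⁻¹ * k⁻¹) = (g * k * g⁻¹ * k⁻¹) * x :=
    fun g hg k hk => (G2 h g hg k hk).2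
  have hcc : ∀ g ∈ 𝒬, ∀ k ∈ 𝒬, ∀ y ∈ 𝒬, (g * k * g⁻¹ * k⁻¹) * y = y * (g * k * g⁻¹ * k⁻¹) :=
    fun g hg k hk => G4 h _ (hmem g hg k hk) (hcx g hg k hk)
  have hsq : ∀ g ∈ 𝒬, ∀ y ∈ 𝒬, (g * g) * y = y * (g * g) :=
    fun g hg => G4 h _ (𝒬.mul_mem hg hg) (G2 h g hg g hg).1
  have hinvol : ∀ g ∈ 𝒬, ∀ k ∈ 𝒬, (g * k * g⁻¹ * k⁻¹) * (g * k * g⁻¹ * k⁻¹) = 1 := by
    intro g hg k hk
    obtain ⟨ζ, hζ⟩ : ∃ ζ, ζ = g * k * g⁻¹ * k⁻¹ := ⟨_, rfl⟩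
    have e1 : g * k = ζ * (k * g) := by rw [hζ]; group
    have e2 : (g * g) * k = k * (g * g) := hsq g hg k hk
    have e3 : ζ * g = g * ζ := by rw [hζ]; exact hcc g hg k hk g hg
    rw [← hζ]
    have e4 : k * (g * g) = (ζ * ζ) * (k * (g * g)) := by
      calc k * (g * g) = (g * g) * k := e2.symm
        _ = g * (g * k) := by group
        _ = g * (ζ * (k * g)) := by rw [e1]
        _ = (g * ζ) * (k * g) := by group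
        _ = (ζ * g) * (k * g) := by rw [e3]
        _ = ζ * (g * k) * g := by group
        _ = ζ * (ζ * (k * g)) * g := by rw [e1]
        _ = (ζ * ζ) * (k * (g * g)) := by group
    exact mul_eq_right.1 e4.symm
  obtain ⟨g₀, hg₀, k₀, hk₀, hne⟩ : ∃ g₀ ∈ 𝒬, ∃ k₀ ∈ 𝒬, g₀ * k₀ ≠ k₀ * g₀ := by
    by_contra hcon
    push Not at hcon
    obtain ⟨g, hg, hgx⟩ := h.nc
    exact hgx (h.ab 𝒬 le_rfl hcon (fun a ha => h.norm x h.xE a ha) g hg)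
  have hz1 : g₀ * k₀ * g₀⁻¹ * k₀⁻¹ ≠ 1 := by
    intro h1
    apply hne
    calc g₀ * k₀ = (g₀ * k₀ * g₀⁻¹ * k₀⁻¹) * (k₀ * g₀) := by group
      _ = k₀ * g₀ := by rw [h1, one_mul]
  refine ⟨g₀ * k₀ * g₀⁻¹ * k₀⁻¹, hmem g₀ hg₀ k₀ hk₀, hz1, hinvol g₀ hg₀ k₀ hk₀, hcc g₀ hg₀ k₀ hk₀,
    hcx g₀ hg₀ k₀ hk₀, ?_⟩
  intro g hg k hk
  by_cases h1 : g * k * g⁻¹ * k⁻¹ = 1
  · left
    calc g * k = (g * k * g⁻¹ * k⁻¹) * (k * g) := by group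
      _ = k * g := by rw [h1, one_mul]
  · right
    have h2 := h.inv1 _ (hmem g hg k hk) _ (hmem g₀ hg₀ k₀ hk₀) (hcc g hg k hk) (hcc g₀ hg₀ k₀ hk₀)
      (hinvol g hg k hk) (hinvol g₀ hg₀ k₀ hk₀) h1 hz1
    rw [← h2]
    group

end Cfsg.Agent.Lib.Helper46.DL
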