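import Mathlib
import Cfsg.Agent.Lib.Helper46.DL.Defs
import Cfsg.Agent.Lib.Helper46.DL.G2
import Cfsg.Agent.Lib.Helper46.DL.G4
import Cfsg.Agent.Lib.Helper46.DL.G5
import Cfsg.Agent.Lib.Helper46.DL.G6

/-!
# Farm DL (helper46, S3789), piece G7
-/

set_option autoImplicit false
set_option linter.unusedSectionVars false
set_option linter.unusedVariables false

namespace Cfsg.Agent.Lib.Helper46.DL

theorem G7_sig {Γ : Type*} [Group Γ] (w g y e : Γ) (h1 : g * y = e * g) (h2 : w * y = e * w) :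
    (w⁻¹ * g) * y = y * (w⁻¹ * g) := by
  have he : e = w * y * w⁻¹ := by rw [h2]; group
  rw [mul_assoc, h1, he]; group

theorem G7_flip {Γ : Type*} [Group Γ] (z a b : Γ) (hzz : z * z = 1) (h : a * b = z * (b * a)) :
    b * a = z * (a * b) := by
  rw [h, ← mul_assoc, hzz, one_mul]

theorem G7 {Γ : Type*} [Group Γ] {𝒬 ℰ : Subgroup Γ} {x : Γ} (h : GCfg 𝒬 ℰ x) :
    ∀ a ∈ 𝒬, x * a ≠ a * x → ∀ g ∈ 𝒬, ∃ s ∈ 𝒬, x * s = s * x ∧
      (g = s ∨ g = a * s ∨ g = (x * a * x⁻¹) * s ∨ g = (x * (x * a * x⁻¹) * x⁻¹) * s) := by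
  intro a ha hxa
  have hG4 := G4 h
  have hG6 := G6 h
  obtain ⟨z, hzQ, hz1, hzz, hzc, hxz, hz5⟩ := G5 h
  have φmul : ∀ g k : Γ, x * (g * k) * x⁻¹ = (x * g * x⁻¹) * (x * k * x⁻¹) := by
    intro g k; group
  have φz : x * z * x⁻¹ = z := by rw [hxz, mul_inv_cancel_right]
  have φ3 : x * (x * (x * a * x⁻¹) * x⁻¹) * x⁻¹ = a := by
    calc x * (x * (x * a * x⁻¹) * x⁻¹) * x⁻¹ = (x * x * x) * a * (x * x * x)⁻¹ := by group
      _ = a := by rw [h.x3]; simp
  have hu0 := (hG6 a ha).1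
  have hab0 := (hG6 a ha).2 hxa
  obtain ⟨b, hb⟩ : ∃ b, b = x * a * x⁻¹ := ⟨_, rfl⟩
  rw [← hb] at φ3 hu0 hab0 ⊢
  have hbQ : b ∈ 𝒬 := by rw [hb]; exact h.norm x h.xE a ha
  obtain ⟨c, hc⟩ : ∃ c, c = x * b * x⁻¹ := ⟨_, rfl⟩
  rw [← hc] at φ3 hu0 ⊢
  have hcQ : c ∈ 𝒬 := by rw [hc]; exact h.norm x h.xE b hbQ
  obtain ⟨u, hu⟩ : ∃ u, u = a * b * c := ⟨_, rfl⟩
  rw [← hu] at hu0
  have huQ : u ∈ 𝒬 := by rw [hu]; exact 𝒬.mul_mem (𝒬.mul_mem ha hbQ) hcQ
  have hucent := hG4 u huQ hu0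
  have hab : a * b = z * (b * a) := by
    rcases hz5 a ha b hbQ with h1 | h1
    · exact absurd h1 hab0
    · exact h1
  have hba : b * a = z * (a * b) := G7_flip z a b hzz hab
  have hbc : b * c = z * (c * b) := by
    calc b * c = x * (a * b) * x⁻¹ := by rw [φmul, ← hb, ← hc]
      _ = x * (z * (b * a)) * x⁻¹ := by rw [hab]
      _ = z * (c * b) := by rw [φmul, φmul, φz, ← hb, ← hc]
  have hcb : c * b = z * (b * c) := G7_flip z b c hzz hbc
  have hca : c * a = z * (a * c) := by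
    calc c * a = x * (b * c) * x⁻¹ := by rw [φmul, ← hc, φ3]
      _ = x * (z * (c * b)) * x⁻¹ := by rw [hbc]
      _ = z * (a * c) := by rw [φmul, φmul, φz, ← hc, φ3]
  -- step 1
  have key : ∀ a' ∈ 𝒬, a' * a = a * a' → a' * b = b * a' → x * a' = a' * x := by
    intro a' ha' h1 h2
    by_contra hne
    have hab0' := (hG6 a' ha').2 hne
    obtain ⟨b', hb'⟩ : ∃ b', b' = x * a' * x⁻¹ := ⟨_, rfl⟩
    rw [← hb'] at hab0'
    have hb'Q : b' ∈ 𝒬 := by rw [hb']; exact h.norm x h.xE a' ha'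
    have c1 : b' * b = b * b' := by
      rw [hb', hb, ← φmul, ← φmul, h1]
    have c2 : b' * c = c * b' := by
      rw [hb', hc, ← φmul, ← φmul, h2]
    have c3 : b' * a = a * b' := by
      have ha_eq : a = u * c⁻¹ * b⁻¹ := by rw [hu]; group
      have C1 : Commute b' u := (hucent b' hb'Q).symm
      have C2 : Commute b' c := c2
      have C3 : Commute b' b := c1
      have C4 : Commute b' (u * c⁻¹ * b⁻¹) := (C1.mul_right C2.inv_right).mul_right C3.inv_right
      rw [← ha_eq] at C4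
      exact C4
    have hab' : a' * b' = z * (b' * a') := by
      rcases hz5 a' ha' b' hb'Q with h3 | h3
      · exact absurd h3 hab0'
      · exact h3
    have ht : a * a' ∈ 𝒬 := 𝒬.mul_mem ha ha'
    have htne : x * (a * a') ≠ (a * a') * x := by
      intro hx
      have h4 := hG4 (a * a') ht hx b hbQ
      apply hab0
      have e : a * b * a' = b * a * a' := by
        calc a * b * a' = a * (a' * b) := by rw [h2, mul_assoc]
          _ = a * a' * b := by rw [mul_assoc]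
          _ = b * (a * a') := h4
          _ = b * a * a' := by rw [mul_assoc]
      exact mul_right_cancel e
    have φt : x * (a * a') * x⁻¹ = b * b' := by rw [φmul, ← hb, ← hb']
    have comm : (a * a') * (b * b') = (b * b') * (a * a') := by
      have hz' := hzc (b * a) (𝒬.mul_mem hbQ ha)
      calc a * a' * (b * b') = a * (a' * b) * b' := by group
        _ = a * (b * a') * b' := by rw [h2]
        _ = (a * b) * (a' * b') := by group
        _ = (z * (b * a)) * (z * (b' * a')) := by rw [hab, hab']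
        _ = z * ((b * a) * z) * (b' * a') := by group
        _ = z * (z * (b * a)) * (b' * a') := by rw [← hz']
        _ = (z * z) * ((b * a) * (b' * a')) := by group
        _ = (b * a) * (b' * a') := by rw [hzz, one_mul]
        _ = b * (a * b') * a' := by group
        _ = b * (b' * a) * a' := by rw [← c3]
        _ = b * b' * (a * a') := by group
    exact (hG6 (a * a') ht).2 htne (by rw [φt]; exact comm)
  -- step 2
  intro g hg
  rcases hz5 g hg a ha with ga | ga <;> rcases hz5 g hg b hbQ with gb | gb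
  · exact ⟨g, hg, key g hg ga gb, Or.inl rfl⟩
  · refine ⟨a⁻¹ * g, 𝒬.mul_mem (𝒬.inv_mem ha) hg, key _ (𝒬.mul_mem (𝒬.inv_mem ha) hg) ?_ ?_,
      Or.inr (Or.inl (by group))⟩
    · exact G7_sig a g a a ga rfl
    · exact G7_sig a g b (z * b) (by rw [gb, mul_assoc]) (by rw [hab, mul_assoc])
  · refine ⟨b⁻¹ * g, 𝒬.mul_mem (𝒬.inv_mem hbQ) hg, key _ (𝒬.mul_mem (𝒬.inv_mem hbQ) hg) ?_ ?_,
      Or.inr (Or.inr (Or.inl (by group)))⟩
    · exact G7_sig b g a (z * a) (by rw [ga, mul_assoc]) (by rw [hba, mul_assoc])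
    · exact G7_sig b g b b gb rfl
  · refine ⟨c⁻¹ * g, 𝒬.mul_mem (𝒬.inv_mem hcQ) hg, key _ (𝒬.mul_mem (𝒬.inv_mem hcQ) hg) ?_ ?_,
      Or.inr (Or.inr (Or.inr (by group)))⟩
    · exact G7_sig c g a (z * a) (by rw [ga, mul_assoc]) (by rw [hca, mul_assoc])
    · exact G7_sig c g b (z * b) (by rw [gb, mul_assoc]) (by rw [hcb, mul_assoc])

end Cfsg.Agent.Lib.Helper46.DL
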