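import Mathlib
import Cfsg.Agent.Lib.Helper46.DL.Defs

/-!
# Farm DL (helper46, S3789), piece SH (helper3)
-/

set_option autoImplicit false
set_option linter.unusedSectionVars false
set_option linter.unusedVariables false

namespace Cfsg.Agent.Lib.Helper46.DL

/-- `e` shifts the cosets `A k C` by `i` -/
def SH_Sh {Γ : Type*} [Group Γ] (C : Subgroup Γ) (A : ℤ → Γ) (e : Γ) (i : ℤ) : Prop :=
  ∀ k : ℤ, (A (k + i))⁻¹ * (e * A k * e⁻¹) ∈ C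

theorem SH_mul {Γ : Type*} [Group Γ] (ℰ C : Subgroup Γ) (A : ℤ → Γ)
    (hCE : ∀ e ∈ ℰ, ∀ s ∈ C, e * s * e⁻¹ ∈ C) {e f : Γ} {i j : ℤ} (he : e ∈ ℰ)
    (h1 : SH_Sh C A e i) (h2 : SH_Sh C A f j) : SH_Sh C A (e * f) (i + j) := by
  intro k
  have a1 := h1 (k + j)
  have a2 := hCE e he _ (h2 k)
  have a3 := C.mul_mem a1 a2
  have hk : k + (i + j) = k + j + i := by ring
  rw [hk]
  convert a3 using 1
  group

theorem SH_inv {Γ : Type*} [Group Γ] (ℰ C : Subgroup Γ) (A : ℤ → Γ)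
    (hCE : ∀ e ∈ ℰ, ∀ s ∈ C, e * s * e⁻¹ ∈ C) {e : Γ} {i : ℤ} (he : e ∈ ℰ)
    (h1 : SH_Sh C A e i) : SH_Sh C A e⁻¹ (-i) := by
  intro k
  have a1 := h1 (k + -i)
  have hk : k + -i + i = k := by ring
  rw [hk] at a1
  have a2 := hCE e⁻¹ (ℰ.inv_mem he) _ (C.inv_mem a1)
  convert a2 using 1
  group

theorem shift {Γ : Type*} [Group Γ] (𝒬 ℰ C : Subgroup Γ) (x a : Γ) (hxE : x ∈ ℰ) (ha : a ∈ 𝒬)
    (hnorm : ∀ e ∈ ℰ, ∀ g ∈ 𝒬, e * g * e⁻¹ ∈ 𝒬)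
    (hCE : ∀ e ∈ ℰ, ∀ s ∈ C, e * s * e⁻¹ ∈ C)
    (hcomm : ∀ e ∈ ℰ, ∀ g ∈ 𝒬, e * (x * g * x⁻¹) * e⁻¹ = x * (e * g * e⁻¹) * x⁻¹)
    (hcov : ∀ e ∈ ℰ, ∃ i : ℤ, (x ^ i * a * (x ^ i)⁻¹)⁻¹ * (e * a * e⁻¹) ∈ C) :
    ∀ y ∈ ⁅ℰ, ℰ⁆, a⁻¹ * (y * a * y⁻¹) ∈ C := by
  -- the elements of ℰ whose conjugation commutes with that of ℰ on 𝒬
  let X : Subgroup Γ :=
    { carrier := {u | u ∈ ℰ ∧ ∀ e ∈ ℰ, ∀ g ∈ 𝒬, e * (u * g * u⁻¹) * e⁻¹ = u * (e * g * e⁻¹) * u⁻¹}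
      mul_mem' := by
        rintro u v ⟨hu, hu'⟩ ⟨hv, hv'⟩
        refine ⟨ℰ.mul_mem hu hv, fun e he g hg => ?_⟩
        have b1 := hu' e he _ (hnorm v hv g hg)
        have b2 := hv' e he g hg
        rw [b2] at b1
        calc e * (u * v * g * (u * v)⁻¹) * e⁻¹ = e * (u * (v * g * v⁻¹) * u⁻¹) * e⁻¹ := by group
          _ = u * (v * (e * g * e⁻¹) * v⁻¹) * u⁻¹ := b1
          _ = u * v * (e * g * e⁻¹) * (u * v)⁻¹ := by group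
      one_mem' := ⟨ℰ.one_mem, fun e he g hg => by group⟩
      inv_mem' := by
        rintro u ⟨hu, hu'⟩
        refine ⟨ℰ.inv_mem hu, fun e he g hg => ?_⟩
        have b1 := hu' e he _ (hnorm u⁻¹ (ℰ.inv_mem hu) g hg)
        have b2 : u * (u⁻¹ * g * u⁻¹⁻¹) * u⁻¹ = g := by group
        rw [b2] at b1
        rw [b1]
        group }
  have hxX : x ∈ X := ⟨hxE, hcomm⟩
  have hzX : ∀ k : ℤ, x ^ k ∈ X := fun k => X.zpow_mem hxX k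
  let A : ℤ → Γ := fun k => x ^ k * a * (x ^ k)⁻¹
  have hA : ∀ k, A k = x ^ k * a * (x ^ k)⁻¹ := fun _ => rfl
  -- (1)
  have h1 : ∀ e ∈ ℰ, ∃ i, SH_Sh C A e i := by
    intro e he
    obtain ⟨i, hi⟩ := hcov e he
    refine ⟨i, fun k => ?_⟩
    have c1 := (hzX k).2 e he a ha
    have c2 := hCE (x ^ k) (hzX k).1 _ hi
    rw [hA, hA, c1, zpow_add]
    convert c2 using 1
    group
  let T : Subgroup Γ :=
    { carrier := {y | y ∈ ℰ ∧ SH_Sh C A y 0}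
      mul_mem' := by
        rintro u v ⟨hu, hu'⟩ ⟨hv, hv'⟩
        refine ⟨ℰ.mul_mem hu hv, ?_⟩
        have := SH_mul ℰ C A hCE hu hu' hv'
        rwa [add_zero] at this
      one_mem' := by
        refine ⟨ℰ.one_mem, fun k => ?_⟩
        rw [add_zero]
        have : (A k)⁻¹ * (1 * A k * 1⁻¹) = 1 := by group
        rw [this]
        exact C.one_mem
      inv_mem' := by
        rintro u ⟨hu, hu'⟩
        refine ⟨ℰ.inv_mem hu, ?_⟩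
        have := SH_inv ℰ C A hCE hu hu'
        rwa [neg_zero] at this }
  have hle : ⁅ℰ, ℰ⁆ ≤ T := by
    rw [Subgroup.commutator_le]
    intro e he f hf
    obtain ⟨i, hi⟩ := h1 e he
    obtain ⟨j, hj⟩ := h1 f hf
    refine ⟨?_, ?_⟩
    · rw [commutatorElement_def]
      exact ℰ.mul_mem (ℰ.mul_mem (ℰ.mul_mem he hf) (ℰ.inv_mem he)) (ℰ.inv_mem hf)
    · rw [commutatorElement_def]
      have d1 := SH_mul ℰ C A hCE he hi hj
      have d2 := SH_mul ℰ C A hCE (ℰ.mul_mem he hf) d1 (SH_inv ℰ C A hCE he hi)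
      have d3 := SH_mul ℰ C A hCE (ℰ.mul_mem (ℰ.mul_mem he hf) (ℰ.inv_mem he)) d2
        (SH_inv ℰ C A hCE hf hj)
      have h0 : i + j + -i + -j = 0 := by ring
      rwa [h0] at d3
  intro y hy
  have := (hle hy).2 0
  rw [add_zero, hA, zpow_zero] at this
  simpa using this

end Cfsg.Agent.Lib.Helper46.DL
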