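import Mathlib
import Cfsg.Agent.Lib.Helper46.DL.Defs
import Cfsg.Agent.Lib.Helper46.DL.G4
import Cfsg.Agent.Lib.Helper46.DL.G6
import Cfsg.Agent.Lib.Helper46.DL.G7
import Cfsg.Agent.Lib.Helper46.DL.SH

/-!
# Farm DL (helper46, S3789), piece G8
-/

set_option autoImplicit false
set_option linter.unusedSectionVars false
set_option linter.unusedVariables false

namespace Cfsg.Agent.Lib.Helper46.DL

theorem G8 {Γ : Type*} [Group Γ] {𝒬 ℰ : Subgroup Γ} {x : Γ} (h : GCfg 𝒬 ℰ x) (hx : x ∈ ⁅ℰ, ℰ⁆) :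
    False := by
  obtain ⟨a, ha, hxa⟩ := h.nc
  let C : Subgroup Γ := 𝒬 ⊓ Subgroup.centralizer {x}
  have memC : ∀ s, s ∈ C ↔ s ∈ 𝒬 ∧ x * s = s * x := by
    intro s
    change s ∈ 𝒬 ∧ s ∈ Subgroup.centralizer {x} ↔ _
    rw [Subgroup.mem_centralizer_singleton_iff]
    constructor
    · rintro ⟨h1, h2⟩
      exact ⟨h1, by first | exact h2 | exact h2.symm⟩
    · rintro ⟨h1, h2⟩
      exact ⟨h1, by first | exact h2 | exact h2.symm⟩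
  have hcomm : ∀ e ∈ ℰ, ∀ g ∈ 𝒬, e * (x * g * x⁻¹) * e⁻¹ = x * (e * g * e⁻¹) * x⁻¹ := by
    intro e he g hg
    have h1 := h.xc e he (x * (e * g * e⁻¹) * x⁻¹) (h.norm x h.xE _ (h.norm e he g hg))
    have h2 : e * (x * g * x⁻¹) * e⁻¹ =
        (e * x * e⁻¹ * x⁻¹) * (x * (e * g * e⁻¹) * x⁻¹) * (e * x * e⁻¹ * x⁻¹)⁻¹ := by group
    rw [h2, h1, mul_inv_cancel_right]
  have hCE : ∀ e ∈ ℰ, ∀ s ∈ C, e * s * e⁻¹ ∈ C := by
    intro e he s hs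
    obtain ⟨hs1, hs2⟩ := (memC s).1 hs
    refine (memC _).2 ⟨h.norm e he s hs1, ?_⟩
    have h1 := hcomm e he s hs1
    have h3 : x * s * x⁻¹ = s := by rw [hs2, mul_inv_cancel_right]
    rw [h3] at h1
    calc x * (e * s * e⁻¹) = x * (e * s * e⁻¹) * x⁻¹ * x := by group
      _ = (e * s * e⁻¹) * x := by rw [← h1]
  have hcov : ∀ e ∈ ℰ, ∃ i : ℤ, (x ^ i * a * (x ^ i)⁻¹)⁻¹ * (e * a * e⁻¹) ∈ C := by
    intro e he
    obtain ⟨s, hs, hxs, hcase⟩ := G7 h a ha hxa (e * a * e⁻¹) (h.norm e he a ha)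
    have hsC : s ∈ C := (memC s).2 ⟨hs, hxs⟩
    rcases hcase with hc | hc | hc | hc
    · exfalso
      have h1 := hCE e⁻¹ (inv_mem he) s hsC
      rw [← hc] at h1
      have h2 : e⁻¹ * (e * a * e⁻¹) * e⁻¹⁻¹ = a := by group
      rw [h2] at h1
      exact hxa ((memC a).1 h1).2
    · refine ⟨0, ?_⟩
      rw [hc]
      have h2 : (x ^ (0:ℤ) * a * (x ^ (0:ℤ))⁻¹)⁻¹ * (a * s) = s := by group
      rw [h2]
      exact hsC
    · refine ⟨1, ?_⟩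
      rw [hc]
      have h2 : (x ^ (1:ℤ) * a * (x ^ (1:ℤ))⁻¹)⁻¹ * (x * a * x⁻¹ * s) = s := by group
      rw [h2]
      exact hsC
    · refine ⟨2, ?_⟩
      rw [hc]
      have h2 : (x ^ (2:ℤ) * a * (x ^ (2:ℤ))⁻¹)⁻¹ * (x * (x * a * x⁻¹) * x⁻¹ * s) = s := by group
      rw [h2]
      exact hsC
  have hfin := shift 𝒬 ℰ C x a h.xE ha h.norm hCE hcomm hcov x hx
  obtain ⟨hs1, hs2⟩ := (memC _).1 hfin
  have hcen := G4 h _ hs1 hs2 a ha
  apply (G6 h a ha).2 hxa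
  generalize x * a * x⁻¹ = b at hcen ⊢
  have h5 : a⁻¹ * b * a = b := by
    rw [hcen]
    group
  calc a * b = a * (a⁻¹ * b * a) := by rw [h5]
    _ = b * a := by group

end Cfsg.Agent.Lib.Helper46.DL
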