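import Mathlib
import Cfsg.Agent.Lib.Helper46.DL.Defs

/-!
# Farm DL (helper46, S3789), piece X0  (by helper73)
-/

set_option autoImplicit false
set_option linter.unusedSectionVars false
set_option linter.unusedVariables false

namespace Cfsg.Agent.Lib.Helper46.DL

theorem exists_x0 {Γ : Type*} [Group Γ] (p : ℕ) [Fact p.Prime] (𝒬 ℰ : Subgroup Γ) [Finite ℰ]
    (hE : IsPGroup p ℰ) (hnc : ∃ x ∈ ⁅ℰ, ℰ⁆, ∃ g ∈ 𝒬, x * g ≠ g * x) :
    ∃ x ∈ ⁅ℰ, ℰ⁆, (∃ g ∈ 𝒬, x * g ≠ g * x) ∧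
      ∀ e ∈ ℰ, ∀ g ∈ 𝒬, (e * x * e⁻¹ * x⁻¹) * g = g * (e * x * e⁻¹ * x⁻¹) := by
  by_contra hcon
  push Not at hcon
  have hnil : Group.IsNilpotent ℰ := hE.isNilpotent
  obtain ⟨N, hN⟩ := (Subgroup.isNilpotent_iff_lowerCentralSeries ℰ).mp hnil
  have key : ∀ n, ∃ x ∈ ℰ.lowerCentralSeries (n + 1), ∃ g ∈ 𝒬, x * g ≠ g * x := by
    intro n
    induction n with
    | zero => exact hnc
    | succ n ih =>
      obtain ⟨x, hx, hbad⟩ := ih
      have hx1 : x ∈ ⁅ℰ, ℰ⁆ :=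
        (Subgroup.lowerCentralSeries_antitone ℰ (Nat.le_add_left 1 n)) hx
      obtain ⟨e, he, hbad'⟩ := hcon x hx1 hbad
      refine ⟨e * x * e⁻¹ * x⁻¹, ?_, hbad'⟩
      rw [Subgroup.lowerCentralSeries_succ]
      have h1 := Subgroup.commutator_mem_commutator hx he
      have h2 := Subgroup.inv_mem _ h1
      rwa [commutatorElement_inv, commutatorElement_def] at h2
  obtain ⟨x, hx, g, hg, hne⟩ := key N
  have h3 : x ∈ ℰ.lowerCentralSeries N :=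
    Subgroup.lowerCentralSeries_antitone ℰ (Nat.le_succ N) hx
  rw [hN, Subgroup.mem_bot] at h3
  subst h3
  simp at hne

end Cfsg.Agent.Lib.Helper46.DL
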