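import Mathlib
import Cfsg.Agent.Lib.Helper46.DL.Defs

/-!
# Farm DL (helper46, S3789), piece X3  (by helper73)
-/

set_option autoImplicit false
set_option linter.unusedSectionVars false
set_option linter.unusedVariables false

namespace Cfsg.Agent.Lib.Helper46.DL

variable {K : Type*} [Field K] {V : Type*} [AddCommGroup V] [Module K V]

theorem cube_eq_one [CharP K 3] (x : V ≃ₗ[K] V) (hquad : ∀ v : V, x (x v) - x v - x v + v = 0) :
    x * x * x = 1 := by
  ext v
  change x (x (x v)) = v
  have h1 : x (x v) = x v + x v - v := by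
    apply eq_of_sub_eq_zero
    rw [← hquad v]
    abel
  have h3 : (3 : K) = 0 := by exact_mod_cast CharP.cast_eq_zero K 3
  rw [h1, map_sub, map_add, h1]
  apply eq_of_sub_eq_zero
  have h4 : (x v + x v - v) + (x v + x v - v) - x v - v = (3 : K) • (x v - v) := by module
  rw [h4, h3, zero_smul]

end Cfsg.Agent.Lib.Helper46.DL
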