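import Mathlib
import Cfsg.Agent.Lib.Helper46.DL.Defs
import Cfsg.Agent.Lib.Helper46.DL.X0
import Cfsg.Agent.Lib.Helper46.DL.X3
import Cfsg.Agent.Lib.Helper46.DL.AB
import Cfsg.Agent.Lib.Helper46.DL.F4
import Cfsg.Agent.Lib.Helper46.DL.G8

/-!
# Farm DL (helper46, S3789), piece MIN

A minimal linear configuration gives the abstract configuration `GCfg`, which is contradictory.
-/

set_option autoImplicit false
set_option linter.unusedSectionVars false
set_option linter.unusedVariables false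

namespace Cfsg.Agent.Lib.Helper46.DL

variable {K : Type*} [Field K] {V : Type*} [AddCommGroup V] [Module K V]

theorem min_case [CharP K 3] [FiniteDimensional K V] {𝒬 ℰ : Subgroup (V ≃ₗ[K] V)}
    (hc : Cfg 2 3 𝒬 ℰ) (hM1 : M1 𝒬 ℰ) (hM2 : M2 𝒬 ℰ) : Comm 𝒬 ℰ := by
  by_contra hnc
  have hnc' : ∃ x ∈ ⁅ℰ, ℰ⁆, ∃ g ∈ 𝒬, x * g ≠ g * x := by
    by_contra hcon
    push Not at hcon
    exact hnc hcon
  have hDE : ⁅ℰ, ℰ⁆ ≤ ℰ := by
    rw [Subgroup.commutator_le]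
    intro a ha b hb
    rw [commutatorElement_def]
    exact ℰ.mul_mem (ℰ.mul_mem (ℰ.mul_mem ha hb) (ℰ.inv_mem ha)) (ℰ.inv_mem hb)
  have := hc.finE
  have : Fact (Nat.Prime 3) := ⟨Nat.prime_three⟩
  obtain ⟨x, hx, hxnc, hxc⟩ := exists_x0 3 𝒬 ℰ hc.pE hnc'
  have hG : GCfg 𝒬 ℰ x :=
    { finQ := hc.finQ
      pQ := hc.pQ
      norm := hc.norm
      xE := hDE hx
      x3 := cube_eq_one x (hc.quad x hx)
      xc := hxc
      ab := abel hc x hx
      min := fun 𝒬₁ h1 h2 h3 => hM1 𝒬₁ h1 h2 h3 x hx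
      inv1 := by
        intro t ht t' ht' htQ htQ' ht2 ht2' ht1 ht1'
        apply LinearEquiv.ext
        intro v
        rw [F4 hc hM2 hnc t ht htQ ht2 ht1 v, F4 hc hM2 hnc t' ht' htQ' ht2' ht1' v]
      nc := hxnc }
  exact G8 hG hx

end Cfsg.Agent.Lib.Helper46.DL
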