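import Mathlib
import Cfsg.Agent.Lib.Helper46.DL.Defs
import Cfsg.Agent.Lib.Helper53.HH.Res

/-!
# Farm DL (helper46, S3789), piece RES (helper3)
-/

set_option autoImplicit false
set_option linter.unusedSectionVars false
set_option linter.unusedVariables false

namespace Cfsg.Agent.Lib.Helper46.DL

open Cfsg.Agent.Lib.Helper53.HH

variable {K : Type*} [Field K] {V : Type*} [AddCommGroup V] [Module K V]

theorem RES_comm_le {G : Type*} [Group G] (E : Subgroup G) : ⁅E, E⁆ ≤ E := by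
  rw [Subgroup.commutator_le]
  intro a ha b hb
  rw [commutatorElement_def]
  exact E.mul_mem (E.mul_mem (E.mul_mem ha hb) (E.inv_mem ha)) (E.inv_mem hb)

theorem RES_comm_subgroupOf {G : Type*} [Group G] (E S : Subgroup G) (h : E ≤ S) :
    ⁅E.subgroupOf S, E.subgroupOf S⁆ = ⁅E, E⁆.subgroupOf S := by
  apply Subgroup.map_injective S.subtype_injective
  rw [Subgroup.map_commutator, Subgroup.map_subgroupOf_eq_of_le h,
    Subgroup.map_subgroupOf_eq_of_le ((RES_comm_le E).trans h)]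

theorem restrict [FiniteDimensional K V] {q p : ℕ} {𝒬 ℰ : Subgroup (V ≃ₗ[K] V)} (hc : Cfg q p 𝒬 ℰ)
    (W : Submodule K V) (hQ : ∀ g ∈ 𝒬, ∀ w ∈ W, g w ∈ W) (hE : ∀ e ∈ ℰ, ∀ w ∈ W, e w ∈ W)
    (IH : ∀ 𝒬' ℰ' : Subgroup (W ≃ₗ[K] W), Cfg q p 𝒬' ℰ' → Comm 𝒬' ℰ') :
    ∀ x ∈ ⁅ℰ, ℰ⁆, ∀ g ∈ 𝒬, ∀ w ∈ W, x (g w) = g (x w) := by
  have hQS : 𝒬 ≤ stab W := fun g hg => mem_stab_of_forall W g (hQ g hg)
  have hES : ℰ ≤ stab W := fun g hg => mem_stab_of_forall W g (hE g hg)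
  have hDE : ⁅ℰ, ℰ⁆ ≤ ℰ := RES_comm_le ℰ
  set 𝒬' : Subgroup (W ≃ₗ[K] W) := (𝒬.subgroupOf (stab W)).map (res W) with h𝒬'
  set ℰ' : Subgroup (W ≃ₗ[K] W) := (ℰ.subgroupOf (stab W)).map (res W) with hℰ'
  have hD : ⁅ℰ', ℰ'⁆ = (⁅ℰ, ℰ⁆.subgroupOf (stab W)).map (res W) := by
    rw [hℰ', ← Subgroup.map_commutator, RES_comm_subgroupOf ℰ _ hES]
  have := hc.finQ
  have := hc.finE
  have f1 : Finite (𝒬.subgroupOf (stab W)) :=
    Finite.of_injective (fun x => (⟨x.1.1, x.2⟩ : 𝒬))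
      (fun a b hab => Subtype.ext (Subtype.ext (congrArg (fun z : 𝒬 => z.1) hab)))
  have f2 : Finite (ℰ.subgroupOf (stab W)) :=
    Finite.of_injective (fun x => (⟨x.1.1, x.2⟩ : ℰ))
      (fun a b hab => Subtype.ext (Subtype.ext (congrArg (fun z : ℰ => z.1) hab)))
  have cfg : Cfg q p 𝒬' ℰ' := by
    refine ⟨?_, ?_, ?_, ?_, ?_, ?_, ?_⟩
    · exact Finite.of_surjective
        (fun x : 𝒬.subgroupOf (stab W) => (⟨res W x.1, Subgroup.mem_map_of_mem _ x.2⟩ : 𝒬'))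
        (by
          rintro ⟨_, y, hy, rfl⟩
          exact ⟨⟨y, hy⟩, rfl⟩)
    · exact Finite.of_surjective
        (fun x : ℰ.subgroupOf (stab W) => (⟨res W x.1, Subgroup.mem_map_of_mem _ x.2⟩ : ℰ'))
        (by
          rintro ⟨_, y, hy, rfl⟩
          exact ⟨⟨y, hy⟩, rfl⟩)
    · exact (hc.pQ.comap_subtype).map _
    · exact (hc.pE.comap_subtype).map _
    · rintro _ ⟨e, he, rfl⟩ _ ⟨g, hg, rfl⟩
      refine ⟨e * g * e⁻¹, ?_, by simp⟩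
      exact hc.norm e.1 he g.1 hg
    · intro x' hx' v
      rw [hD] at hx'
      obtain ⟨x, hx, rfl⟩ := hx'
      apply Subtype.ext
      exact hc.quad x.1 hx v.1
    · intro x' hx' e' he' v
      rw [hD] at hx'
      obtain ⟨x, hx, rfl⟩ := hx'
      obtain ⟨e, he, rfl⟩ := he'
      apply Subtype.ext
      exact hc.cub x.1 hx e.1 he v.1
  have hcomm := IH 𝒬' ℰ' cfg
  intro x hx g hg w hw
  have hxS : x ∈ stab W := hES (hDE hx)
  have hgS : g ∈ stab W := hQS hg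
  have h1 : res W ⟨x, hxS⟩ ∈ ⁅ℰ', ℰ'⁆ := by
    rw [hD]
    exact ⟨⟨x, hxS⟩, hx, rfl⟩
  have h2 : res W ⟨g, hgS⟩ ∈ 𝒬' := ⟨⟨g, hgS⟩, hg, rfl⟩
  have h3 := hcomm _ h1 _ h2
  have h4 := congrArg (fun f : W ≃ₗ[K] W => ((f ⟨w, hw⟩ : W) : V)) h3
  exact h4

end Cfsg.Agent.Lib.Helper46.DL
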