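import Mathlib
import Cfsg.Agent.Lib.Helper46.DL.Defs
import Cfsg.Agent.Lib.Helper46.DL.MIN
import Cfsg.Agent.Lib.Helper46.DL.RES

/-!
# Farm DL (helper46, S3789), piece C32
-/

set_option autoImplicit false
set_option linter.unusedSectionVars false
set_option linter.unusedVariables false

namespace Cfsg.Agent.Lib.Helper46.DL

universe u v

theorem core32 (K : Type v) [Field K] [CharP K 3] :
    ∀ (d : ℕ) (V : Type u) [AddCommGroup V] [Module K V] [FiniteDimensional K V],
      Module.finrank K V = d → ∀ (c : ℕ) (𝒬 ℰ : Subgroup (V ≃ₗ[K] V)), Nat.card 𝒬 = c →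
        Cfg 2 3 𝒬 ℰ → Comm 𝒬 ℰ := by
  intro d
  induction d using Nat.strong_induction_on with
  | _ d IHd =>
    intro V _ _ _ hd c
    induction c using Nat.strong_induction_on with
    | _ c IHc =>
      intro 𝒬 ℰ hcard hc
      haveI := hc.finQ
      apply min_case hc
      · intro 𝒬₁ hle hne hnorm
        have hlt : Nat.card 𝒬₁ < c := by
          rw [← hcard]
          refine lt_of_le_of_ne (Subgroup.card_le_of_le hle) ?_
          intro heq
          exact hne (Subgroup.eq_of_le_of_card_ge hle heq.ge)
        have hc₁ : Cfg 2 3 𝒬₁ ℰ :=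
          { finQ := Finite.of_injective (Subgroup.inclusion hle) (Subgroup.inclusion_injective hle)
            finE := hc.finE
            pQ := hc.pQ.to_le hle
            pE := hc.pE
            norm := hnorm
            quad := hc.quad
            cub := hc.cub }
        exact IHc _ hlt 𝒬₁ ℰ rfl hc₁
      · intro W hW hQ hE
        have hlt : Module.finrank K W < d := by
          rw [← hd]
          exact Submodule.finrank_lt hW
        exact restrict hc W hQ hE (fun 𝒬' ℰ' h => IHd _ hlt W rfl _ 𝒬' ℰ' rfl h)

end Cfsg.Agent.Lib.Helper46.DL
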