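import Mathlib
import Cfsg.Agent.Lib.Helper46.DL.Defs
import Cfsg.Agent.Lib.Helper46.DL.TB
import Cfsg.Agent.Lib.Helper46.DL.C32

/-!
# Farm DL (helper46, S3789), piece CORE
-/

set_option autoImplicit false
set_option linter.unusedSectionVars false
set_option linter.unusedVariables false

namespace Cfsg.Agent.Lib.Helper46.DL

variable {K : Type*} [Field K] {V : Type*} [AddCommGroup V] [Module K V]

theorem core [FiniteDimensional K V] (p q : ℕ) [Fact p.Prime] [Fact q.Prime] (hpq : p ≠ q)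
    (hp2 : p ≠ 2) [CharP K p] {𝒬 ℰ : Subgroup (V ≃ₗ[K] V)} (hc : Cfg q p 𝒬 ℰ) : Comm 𝒬 ℰ := by
  intro x hx g hg
  by_contra hne
  haveI := hc.finQ
  have hxE : x ∈ ℰ := by
    have hle : ⁅ℰ, ℰ⁆ ≤ ℰ := by
      rw [Subgroup.commutator_le]
      intro a ha b hb
      exact ℰ.mul_mem (ℰ.mul_mem (ℰ.mul_mem ha hb) (ℰ.inv_mem ha)) (ℰ.inv_mem hb)
    exact hle hx
  have h := TB (F := K) p q hpq hp2 𝒬 hc.pQ x (hc.norm x hxE) (hc.quad x hx) ⟨g, hg, hne⟩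
  obtain ⟨rfl, rfl, -⟩ := h
  exact hne (core32 K _ V rfl _ 𝒬 ℰ rfl hc x hx g hg)

end Cfsg.Agent.Lib.Helper46.DL
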