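import Mathlib
import Cfsg.Agent.Lib.Helper46.DL.Defs

/-!
# Farm DL (helper46, S3789), piece DS  (by helper73)
-/

set_option autoImplicit false
set_option linter.unusedSectionVars false
set_option linter.unusedVariables false

namespace Cfsg.Agent.Lib.Helper46.DL

theorem dS_eq {G : Type*} [Group G] (S : Subgroup G) (n : ℕ) :
    (derivedSeries ↥S n).map S.subtype = dS S n := by
  induction n with
  | zero =>
    rw [derivedSeries_zero, ← MonoidHom.range_eq_map, Subgroup.range_subtype]
    rfl
  | succ n ih =>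
    rw [derivedSeries_succ, Subgroup.map_commutator, ih]
    rfl

theorem dS_map {G H : Type*} [Group G] [Group H] (f : G →* H) (S : Subgroup G) (n : ℕ) :
    (dS S n).map f = dS (S.map f) n := by
  induction n with
  | zero => rfl
  | succ n ih =>
    change (⁅dS S n, dS S n⁆).map f = ⁅dS (S.map f) n, dS (S.map f) n⁆
    rw [Subgroup.map_commutator, ih]

theorem dS_le {G : Type*} [Group G] (S : Subgroup G) (n : ℕ) : dS S n ≤ S := by
  induction n with
  | zero => exact le_rfl
  | succ n ih =>
    change ⁅dS S n, dS S n⁆ ≤ S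
    rw [Subgroup.commutator_le]
    intro a ha b hb
    rw [commutatorElement_def]
    exact S.mul_mem (S.mul_mem (S.mul_mem (ih ha) (ih hb)) (S.inv_mem (ih ha))) (S.inv_mem (ih hb))

theorem dS_normal {G : Type*} [Group G] (S : Subgroup G) (n : ℕ) :
    ∀ g ∈ S, ∀ a ∈ dS S n, g * a * g⁻¹ ∈ dS S n := by
  intro g hg a ha
  have h1 : S.map (MulAut.conj g).toMonoidHom = S := by
    ext x
    constructor
    · rintro ⟨y, hy, rfl⟩
      exact S.mul_mem (S.mul_mem hg hy) (S.inv_mem hg)
    · intro hx
      refine ⟨g⁻¹ * x * g, S.mul_mem (S.mul_mem (S.inv_mem hg) hx) hg, ?_⟩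
      change g * (g⁻¹ * x * g) * g⁻¹ = x
      group
  have h2 := dS_map (MulAut.conj g).toMonoidHom S n
  rw [h1] at h2
  rw [← h2]
  exact ⟨a, ha, rfl⟩

theorem dS_bot_iff {G : Type*} [Group G] (S : Subgroup G) (n : ℕ) :
    derivedSeries ↥S n = ⊥ ↔ dS S n = ⊥ := by
  rw [← dS_eq, Subgroup.map_eq_bot_iff_of_injective _ S.subtype_injective]

end Cfsg.Agent.Lib.Helper46.DL
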