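import Mathlib
import Cfsg.Agent.Lib.Helper46.DL.Defs
import Cfsg.Agent.Lib.Helper53.HH.R8

/-!
# Farm DL (helper46, S3789), piece EQ

Adaptation of `Cfsg.Agent.Lib.Helper53.HH.exists_q_subgroup` with `A := E` instead of `zpowers x`.
-/

set_option autoImplicit false
set_option linter.unusedSectionVars false
set_option linter.unusedVariables false

namespace Cfsg.Agent.Lib.Helper46.DL

open Cfsg in
theorem exists_q_subgroup' {H : Type*} [Group H] [Finite H] {p : ℕ} [hp : Fact p.Prime]
    (hsol : Cfsg.IsPSolvable p H) (hOp : Cfsg.pCore p H = ⊥) (E : Subgroup H) (hE : IsPGroup p E)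
    (y : H) (hy : y ∈ E) (hy1 : y ≠ 1) :
    ∃ (q : ℕ) (Q : Subgroup H), q.Prime ∧ q ≠ p ∧ IsPGroup q Q ∧ (∀ e ∈ E, ∀ a ∈ Q, e * a * e⁻¹ ∈ Q) ∧
      ∃ a ∈ Q, y * a ≠ a * y := by
  set K := pPrimeCore p H with hK
  have hKc : (Nat.card K).Coprime p := Cfsg.Agent.Lib.Lead.card_pPrimeCore_coprime p
  have hCK : Subgroup.centralizer (K : Set H) ≤ K :=
    Cfsg.Agent.Lib.Helper48.centralizer_pPrimeCore_le hsol hOp
  obtain ⟨e, hAcard⟩ := IsPGroup.iff_card.1 hE
  have hAK : E ≤ Subgroup.normalizer (K : Set H) := by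
    rw [Subgroup.normalizer_eq_top]
    exact le_top
  have hcop : (Nat.card E).Coprime (Nat.card K) := by
    rw [hAcard]
    exact Nat.Coprime.pow_left _ hKc.symm
  have hnil : Group.IsNilpotent E := hE.isNilpotent
  have hsolv : Group.IsSolvable E ∨ Group.IsSolvable K := Or.inl IsNilpotent.to_isSolvable
  by_contra hcon
  push Not at hcon
  set C : Subgroup H := K ⊓ Subgroup.centralizer ({y} : Set H) with hC
  have hCle : C ≤ K := inf_le_left
  have h1 : C.relIndex K = 1 := by
    rw [Nat.eq_one_iff_not_exists_prime_dvd]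
    intro r hr hdvd
    have : Fact r.Prime := ⟨hr⟩
    obtain ⟨R, hRK, hRp, hRi, hRn⟩ :=
      Cfsg.Agent.Lib.Helper1.exists_invariant_sylow E K hAK hcop hsolv r
    have hRc : (Nat.card R).Coprime p := Nat.Coprime.of_dvd_left (Subgroup.card_dvd_of_le hRK) hKc
    have hRH : R ≤ C := by
      by_cases hrp : r = p
      · subst hrp
        obtain ⟨k, hk⟩ := IsPGroup.iff_card.1 hRp
        have : Nat.card R = 1 := by
          rw [hk] at hRc ⊢
          rcases Nat.eq_zero_or_pos k with rfl | hk0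
          · simp
          · exact absurd ((Nat.coprime_pow_left_iff hk0 _ _).1 hRc) (by
              rw [Nat.coprime_self]; exact hr.ne_one)
        rw [Subgroup.card_eq_one.1 this]
        exact bot_le
      · intro k hk
        refine Subgroup.mem_inf.mpr ⟨hRK hk, ?_⟩
        rw [Subgroup.mem_centralizer_singleton_iff]
        refine (hcon r R hr hrp hRp ?_ k hk).symm
        intro e he a ha
        exact ((Subgroup.mem_normalizer_iff.1 (hRn he)) a).1 ha
    apply hRi
    rw [← Subgroup.relIndex_mul_relIndex R C K hRH hCle]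
    exact Dvd.dvd.mul_left hdvd _
  have h2 : K ≤ C := Subgroup.relIndex_eq_one.mp h1
  have h3 : y ∈ K := by
    apply hCK
    rw [Subgroup.mem_centralizer_iff]
    intro k hk
    exact Subgroup.mem_centralizer_singleton_iff.1 (Subgroup.mem_inf.mp (h2 hk)).2
  apply hy1
  have h4 : orderOf y ∣ Nat.card K := by
    have := orderOf_dvd_natCard (⟨y, h3⟩ : K)
    rwa [Subgroup.orderOf_mk] at this
  have h5 : orderOf y ∣ Nat.card E := by
    have := orderOf_dvd_natCard (⟨y, hy⟩ : E)
    rwa [Subgroup.orderOf_mk] at this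
  rw [← orderOf_eq_one_iff]
  exact Nat.eq_one_of_dvd_coprimes hcop h5 h4

end Cfsg.Agent.Lib.Helper46.DL
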