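import Mathlib
import Cfsg.Agent.Lib.Helper46.DL.Defs
import Cfsg.Agent.Lib.Helper46.DL.CORE
import Cfsg.Agent.Lib.Helper46.DL.EQ

/-!
# Farm DL (helper46, S3789), piece LIN

Transport of the linear statement `core` to an abstract `p`-soluble group acting faithfully.
-/

set_option autoImplicit false
set_option linter.unusedSectionVars false
set_option linter.unusedVariables false

namespace Cfsg.Agent.Lib.Helper46.DL

open Cfsg in
theorem lin {H : Type*} [Group H] [Finite H] {p : ℕ} [Fact p.Prime] (hp2 : p ≠ 2)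
    (hsol : Cfsg.IsPSolvable p H) (hOp : Cfsg.pCore p H = ⊥)
    {K : Type*} [Field K] [CharP K p] {V : Type*} [AddCommGroup V] [Module K V] [FiniteDimensional K V]
    (Θ : H →* (V ≃ₗ[K] V)) (hΘ : Function.Injective Θ) (E : Subgroup H) (hE : IsPGroup p E)
    (quad : ∀ x ∈ ⁅E, E⁆, ∀ v : V, Θ x (Θ x v) - Θ x v - Θ x v + v = 0)
    (cub : ∀ x ∈ ⁅E, E⁆, ∀ e ∈ E, ∀ v : V,
      Θ x (Θ e (Θ e v) - Θ e v - Θ e v + v) = Θ e (Θ e v) - Θ e v - Θ e v + v) :
    ⁅E, E⁆ = ⊥ := by
  by_contra hne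
  obtain ⟨y, hy, hy1⟩ : ∃ y ∈ ⁅E, E⁆, y ≠ 1 := by
    by_contra hcon
    push Not at hcon
    exact hne ((Subgroup.eq_bot_iff_forall _).2 hcon)
  have hDE : ⁅E, E⁆ ≤ E := by
    rw [Subgroup.commutator_le]
    intro a ha b hb
    rw [commutatorElement_def]
    exact E.mul_mem (E.mul_mem (E.mul_mem ha hb) (E.inv_mem ha)) (E.inv_mem hb)
  obtain ⟨q, Q, hq, hqp, hQ, hnorm, a, ha, hya⟩ :=
    exists_q_subgroup' hsol hOp E hE y (hDE hy) hy1
  haveI : Fact q.Prime := ⟨hq⟩
  have hcomm : ⁅E.map Θ, E.map Θ⁆ = (⁅E, E⁆).map Θ := (Subgroup.map_commutator E E Θ).symm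
  have hc : Cfg q p (Q.map Θ) (E.map Θ) :=
    { finQ := by
        have : Finite ((Q.map Θ : Subgroup (V ≃ₗ[K] V)) : Set (V ≃ₗ[K] V)) := by
          rw [Subgroup.coe_map]
          exact (Set.toFinite _).image _ |>.to_subtype
        exact this
      finE := by
        have : Finite ((E.map Θ : Subgroup (V ≃ₗ[K] V)) : Set (V ≃ₗ[K] V)) := by
          rw [Subgroup.coe_map]
          exact (Set.toFinite _).image _ |>.to_subtype
        exact this
      pQ := hQ.map Θ
      pE := hE.map Θ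
      norm := by
        rintro _ ⟨e, he, rfl⟩ _ ⟨g, hg, rfl⟩
        exact ⟨e * g * e⁻¹, hnorm e he g hg, by simp⟩
      quad := by
        intro x hx v
        rw [hcomm] at hx
        obtain ⟨x, hx, rfl⟩ := hx
        exact quad x hx v
      cub := by
        intro x hx e he v
        rw [hcomm] at hx
        obtain ⟨x, hx, rfl⟩ := hx
        obtain ⟨e, he, rfl⟩ := he
        exact cub x hx e he v }
  have h := core p q (Ne.symm hqp) hp2 hc (Θ y) (by rw [hcomm]; exact ⟨y, hy, rfl⟩) (Θ a)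
    ⟨a, ha, rfl⟩
  rw [← map_mul, ← map_mul] at h
  exact hya (hΘ h)

end Cfsg.Agent.Lib.Helper46.DL
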