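import Mathlib
import Cfsg.Agent.Lib.Helper46.DL.Defs
import Cfsg.Agent.Lib.Helper53.HH.W1

/-!
# Farm DL (helper46, S3789), piece TH

(1) theta_injective: extracted from the proof of `thmB_abelian` (Helper53/HH/W1.lean).
(2) cl is the canonical map R → VQ p (Abelianization R).
(3) theta_cl.
-/

set_option autoImplicit false
set_option linter.unusedSectionVars false
set_option linter.unusedVariables false

namespace Cfsg.Agent.Lib.Helper46.DL

open Cfsg Cfsg.Agent.Lib.Helper53.HH Cfsg.Agent.Lib.Helper73.HHAbel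

theorem theta_injective {H : Type*} [Group H] [Finite H] {p : ℕ} [Fact p.Prime]
    (hOp : pCore p H = ⊥) {A : Type*} [CommGroup A] [Finite A] (hA : IsPGroup p A) (φ : H →* MulAut A)
    (hφ : Function.Injective φ) : Function.Injective ((rhoGL p A).comp φ) := by
  rw [← MonoidHom.ker_eq_bot_iff, eq_bot_iff, ← hOp]
  apply Cfsg.Agent.Lib.Lead.le_pCore inferInstance
  rintro ⟨c, hc⟩
  have h1 : φ c ∈ Cfsg.Agent.Lib.Helper64.frattiniKer A := by
    intro a
    have h2 : rhoEnd p A (φ c) (Additive.ofMul (QuotientGroup.mk a)) =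
        Additive.ofMul (QuotientGroup.mk a) := by
      have h3 := congrArg (fun e : VQ p A ≃ₗ[ZMod p] VQ p A =>
        e (Additive.ofMul (QuotientGroup.mk a))) (MonoidHom.mem_ker.1 hc)
      exact h3
    rw [rhoEnd_mk] at h2
    have h4 : (QuotientGroup.mk (φ c a) : A ⧸ powSub p A) = QuotientGroup.mk a :=
      Additive.ofMul.injective h2
    have h5 := (QuotientGroup.eq_iff_div_mem (N := powSub p A)).1 h4
    rw [div_eq_mul_inv] at h5
    obtain ⟨b, hb⟩ := h5
    rw [← hb]
    exact Cfsg.Agent.Lib.Helper2.pow_p_mem_frattini hA b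
  obtain ⟨k, hk⟩ := Cfsg.Agent.Lib.Helper64.isPGroup_frattiniKer hA ⟨_, h1⟩
  refine ⟨k, ?_⟩
  have hk' : (φ c) ^ p ^ k = 1 := by
    have := congrArg Subtype.val hk
    simpa using this
  rw [← map_pow] at hk'
  have := hφ (hk'.trans (map_one φ).symm)
  exact Subtype.ext (by simpa using this)

/-- the class of `r ∈ R` in `R / R' R^p`, written additively -/
def cl {G : Type*} [Group G] (p : ℕ) [Fact p.Prime] (R : Subgroup G) (r : R) :
    VQ p (Abelianization R) :=
  Additive.ofMul (QuotientGroup.mk (Abelianization.of r))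

theorem cl_mul {G : Type*} [Group G] (p : ℕ) [Fact p.Prime] (R : Subgroup G) (r s : R) :
    cl p R (r * s) = cl p R r + cl p R s := by
  unfold cl
  rw [map_mul, QuotientGroup.mk_mul, ofMul_mul]

theorem cl_one {G : Type*} [Group G] (p : ℕ) [Fact p.Prime] (R : Subgroup G) :
    cl p R 1 = 0 := by
  unfold cl
  rw [map_one, QuotientGroup.mk_one, ofMul_one]

theorem cl_inv {G : Type*} [Group G] (p : ℕ) [Fact p.Prime] (R : Subgroup G) (r : R) :
    cl p R r⁻¹ = - cl p R r := by
  unfold cl
  rw [map_inv, QuotientGroup.mk_inv, ofMul_inv]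

theorem cl_surjective {G : Type*} [Group G] (p : ℕ) [Fact p.Prime] (R : Subgroup G) :
    Function.Surjective (cl p R) := by
  intro v
  obtain ⟨a, ha⟩ := QuotientGroup.mk_surjective (Additive.toMul v)
  obtain ⟨r, rfl⟩ := QuotientGroup.mk_surjective a
  refine ⟨r, ?_⟩
  unfold cl
  have : (QuotientGroup.mk (Abelianization.of r) :
      Abelianization R ⧸ powSub p (Abelianization R)) = Additive.toMul v := ha
  rw [this]
  rfl

theorem theta_cl {G : Type*} [Group G] (p : ℕ) [Fact p.Prime] (R : Subgroup G) [R.Normal] (g : G)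
    (r : R) :
    ((rhoGL p (Abelianization R)).comp (Psibar R)) (QuotientGroup.mk' R g) (cl p R r) =
      cl p R ⟨g * r * g⁻¹, (inferInstance : R.Normal).conj_mem r r.2 g⟩ := by
  rfl

end Cfsg.Agent.Lib.Helper46.DL
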