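import Mathlib
import Cfsg.Agent.Lib.Helper46.DL.Defs
import Cfsg.Agent.Lib.Helper46.DL.LIN
import Cfsg.Agent.Lib.Helper46.DL.TH
import Cfsg.Agent.Lib.Helper46.DL.DS

/-!
# Farm DL (helper46, S3789), piece KEY  (formalised by helper93)

R := pCore p G, C_G(R) ≤ R.  d = 0: P is commutative so P ≤ C_G(R) ≤ R.
d = d'+1: E₀ := dS P d', D₀ := dS P (d'+1); apply `lin` to the action of G ⧸ R on R / R' R^p.
-/

set_option autoImplicit false
set_option linter.unusedSectionVars false
set_option linter.unusedVariables false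

namespace Cfsg.Agent.Lib.Helper46.DL

open Cfsg Cfsg.Agent.Lib.Helper53.HH Cfsg.Agent.Lib.Helper73.HHAbel
open scoped commutatorElement

section aux
variable {G : Type*} [Group G] (p : ℕ) [Fact p.Prime] (R : Subgroup G) [hn : R.Normal]

/-- `g r g⁻¹` as an element of `R` -/
def keyCj (g : G) (r : R) : R := ⟨g * r * g⁻¹, hn.conj_mem r r.2 g⟩

/-- `[g, r] = g r g⁻¹ r⁻¹` as an element of `R` -/
def keyCm (g : G) (r : R) : R := keyCj R g r * r⁻¹

theorem key_theta (g : G) (r : R) :
    ((rhoGL p (Abelianization R)).comp (Psibar R)) (QuotientGroup.mk' R g) (cl p R r) =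
      cl p R (keyCm R g r) + cl p R r := by
  rw [theta_cl, ← cl_mul]
  congr 1
  simp [keyCm, keyCj]

theorem key_theta_fix (g : G) (r : R) (h : g * r = r * g) :
    ((rhoGL p (Abelianization R)).comp (Psibar R)) (QuotientGroup.mk' R g) (cl p R r) =
      cl p R r := by
  rw [theta_cl]
  congr 1
  apply Subtype.ext
  simp [h]

theorem keyCm_coe (g : G) (r : R) : ((keyCm R g r : R) : G) = g * r * g⁻¹ * (r : G)⁻¹ := rfl

end aux

theorem key {G : Type*} [Group G] [Finite G] {p : ℕ} [Fact p.Prime] (hp2 : p ≠ 2)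
    (hsol : Cfsg.IsPSolvable p G) (hcore : Cfsg.pPrimeCore p G = ⊥) (P : Sylow p G) (d : ℕ)
    (hd : dS (P : Subgroup G) (d + 1) = ⊥) : dS (P : Subgroup G) d ≤ Cfsg.pCore p G := by
  have hRP : Cfsg.pCore p G ≤ (P : Subgroup G) := Cfsg.Agent.Lib.Lead.pCore_le_sylow P
  have hCR : Subgroup.centralizer (Cfsg.pCore p G : Set G) ≤ Cfsg.pCore p G :=
    Cfsg.Agent.Lib.Helper76.centralizer_pCore_le hsol hcore
  cases d with
  | zero =>
    intro x hx
    apply hCR
    rw [Subgroup.mem_centralizer_iff]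
    intro r hr
    have hc : ⁅x, r⁆ ∈ ⁅(P : Subgroup G), (P : Subgroup G)⁆ :=
      Subgroup.commutator_mem_commutator hx (hRP hr)
    have h2 : ⁅(P : Subgroup G), (P : Subgroup G)⁆ = ⊥ := hd
    rw [h2] at hc
    exact (commutatorElement_eq_one_iff_mul_comm.mp (Subgroup.mem_bot.mp hc)).symm
  | succ d' =>
    set R := Cfsg.pCore p G with hR
    set E₀ := dS (P : Subgroup G) d' with hE₀
    set D₀ := dS (P : Subgroup G) (d' + 1) with hD₀
    have hD₀E : D₀ = ⁅E₀, E₀⁆ := rfl
    have hDD : ⁅D₀, D₀⁆ = ⊥ := hd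
    have hcommD : ∀ a ∈ D₀, ∀ b ∈ D₀, a * b = b * a := by
      intro a ha b hb
      have hc : ⁅a, b⁆ ∈ ⁅D₀, D₀⁆ := Subgroup.commutator_mem_commutator ha hb
      rw [hDD] at hc
      exact commutatorElement_eq_one_iff_mul_comm.mp (Subgroup.mem_bot.mp hc)
    have hnE : ∀ g ∈ (P : Subgroup G), ∀ a ∈ E₀, g * a * g⁻¹ ∈ E₀ := dS_normal _ d'
    have hnD : ∀ g ∈ (P : Subgroup G), ∀ a ∈ D₀, g * a * g⁻¹ ∈ D₀ := dS_normal _ (d' + 1)
    have hRp : IsPGroup p R := Cfsg.Agent.Lib.Lead.pCore_isPGroup p G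
    have hA : IsPGroup p (Abelianization R) := hRp.to_quotient _
    set π := QuotientGroup.mk' R with hπ
    set E := E₀.map π with hE
    have hEE : ⁅E, E⁆ = D₀.map π := (Subgroup.map_commutator E₀ E₀ π).symm
    have hEp : IsPGroup p E := (P.isPGroup'.to_le (dS_le _ d')).map π
    have hΘ := theta_injective (Cfsg.Agent.Lib.Lead.pCore_quotient_pCore p G) hA (Psibar R)
      (Psibar_injective hsol hcore)
    haveI : FiniteDimensional (ZMod p) (VQ p (Abelianization R)) := Module.Finite.of_finite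
    -- membership of commutators
    have hcmE : ∀ e ∈ E₀, ∀ r : R, ((keyCm R e r : R) : G) ∈ E₀ := by
      intro e he r
      rw [keyCm_coe, mul_assoc, mul_assoc]
      refine mul_mem he ?_
      rw [← mul_assoc]
      exact hnE r (hRP r.2) e⁻¹ (inv_mem he)
    have hcmD : ∀ x ∈ D₀, ∀ r : R, ((keyCm R x r : R) : G) ∈ D₀ := by
      intro e he r
      rw [keyCm_coe, mul_assoc, mul_assoc]
      refine mul_mem he ?_
      rw [← mul_assoc]
      exact hnD r (hRP r.2) e⁻¹ (inv_mem he)
    have hbot := lin hp2 (Cfsg.Agent.Lib.Helper76.isPSolvable_quotient R hsol)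
      (Cfsg.Agent.Lib.Lead.pCore_quotient_pCore p G)
      ((rhoGL p (Abelianization R)).comp (Psibar R)) hΘ E hEp
      (by
        intro x' hx' v
        rw [hEE] at hx'
        obtain ⟨x, hx, rfl⟩ := hx'
        obtain ⟨r, rfl⟩ := cl_surjective p R v
        rw [key_theta p R x r, map_add,
          key_theta_fix p R x (keyCm R x r) (hcommD x hx _ (hcmD x hx r)), key_theta p R x r]
        abel)
      (by
        intro x' hx' e' he' v
        rw [hEE] at hx'
        obtain ⟨x, hx, rfl⟩ := hx'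
        obtain ⟨e, he, rfl⟩ := he'
        obtain ⟨r, rfl⟩ := cl_surjective p R v
        have hd₀ : ((keyCm R e (keyCm R e r) : R) : G) ∈ D₀ := by
          rw [keyCm_coe, hD₀E]
          exact Subgroup.commutator_mem_commutator he (hcmE e he r)
        have hval : ((rhoGL p (Abelianization R)).comp (Psibar R)) (π e)
              (((rhoGL p (Abelianization R)).comp (Psibar R)) (π e) (cl p R r))
            - ((rhoGL p (Abelianization R)).comp (Psibar R)) (π e) (cl p R r)
            - ((rhoGL p (Abelianization R)).comp (Psibar R)) (π e) (cl p R r) + cl p R r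
            = cl p R (keyCm R e (keyCm R e r)) := by
          rw [key_theta p R e r, map_add, key_theta p R e (keyCm R e r), key_theta p R e r]
          abel
        rw [hval]
        exact key_theta_fix p R x _ (hcommD x hx _ hd₀))
    intro x hx
    have h1 : π x ∈ D₀.map π := ⟨x, hx, rfl⟩
    rw [← hEE, hbot] at h1
    exact (QuotientGroup.eq_one_iff x).mp (Subgroup.mem_bot.mp h1)

end Cfsg.Agent.Lib.Helper46.DL
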