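import Mathlib
import Cfsg.Agent.Lib.Helper46.DL.Defs
import Cfsg.Agent.Lib.Helper46.DL.KEY
import Cfsg.Agent.Lib.Helper46.DL.DS
import Cfsg.Agent.Lib.Helper73.HHAbel2

/-!
# Farm DL (helper46, S3789), piece TOP

Induction on `d`, for all `G`, along the upper `p`-series.
-/

set_option autoImplicit false
set_option linter.unusedSectionVars false
set_option linter.unusedVariables false

namespace Cfsg.Agent.Lib.Helper46.DL

universe u

open Cfsg Cfsg.Agent.Lib.Helper63 in
theorem top (p : ℕ) [hp : Fact p.Prime] (hp2 : p ≠ 2) (d : ℕ) :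
    ∀ (G : Type u) [Group G] [Finite G], Cfsg.IsPSolvable p G →
      (∀ P : Sylow p G, dS (P : Subgroup G) d = ⊥) → Cfsg.PLengthLE p d G := by
  induction d with
  | zero =>
    intro G _ _ _ hd
    apply pLengthLE_zero_of_coprime
    have S : Sylow p G := default
    have hS : (S : Subgroup G) = ⊥ := hd S
    have h1 := S.not_dvd_index
    rw [hS, Subgroup.index_bot] at h1
    exact ((Nat.Prime.coprime_iff_not_dvd hp.out).mpr h1).symm
  | succ n ih =>
    intro G _ _ hsol hd
    have hsurj := QuotientGroup.mk'_surjective (ups p G 2)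
    have hsurj1 := QuotientGroup.mk'_surjective (ups p G 1)
    apply PLengthLE.of_quotient_ups_two hp.out
    apply ih _ (Cfsg.Agent.Lib.Helper76.isPSolvable_quotient _ hsol)
    intro P
    obtain ⟨S, rfl⟩ := Sylow.mapSurjective_surjective hsurj p P
    rw [Sylow.coe_mapSurjective, ← dS_map, eq_bot_iff]
    rintro _ ⟨a, ha, rfl⟩
    rw [Subgroup.mem_bot]
    apply (QuotientGroup.eq_one_iff _).2
    rw [ups_two_eq, Subgroup.mem_comap]
    have hk := key hp2 (Cfsg.Agent.Lib.Helper76.isPSolvable_quotient (ups p G 1) hsol)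
      (pPrimeCore_quotient_ups_one hp.out) (S.mapSurjective hsurj1) n
      (by rw [Sylow.coe_mapSurjective, ← dS_map, hd S, Subgroup.map_bot])
    apply hk
    rw [Sylow.coe_mapSurjective, ← dS_map]
    exact Subgroup.mem_map_of_mem _ ha

end Cfsg.Agent.Lib.Helper46.DL
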